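import Mathlib
import Cfsg.Prelude.Def_Balance
import Cfsg.Agent.Lib.H28.Cj
import Cfsg.Agent.Lib.H28.RelSyl
import Cfsg.Agent.Lib.H28.RelHall
import Cfsg.Agent.Lib.H26.PComponents
import Cfsg.Agent.Lib.H1.Cores

/-!
The extended 2-layer `L*_{2'}(X)`.
-/

set_option autoImplicit false

open Cfsg Subgroup H28.Cj H28.RelSyl
open scoped commutatorElement

namespace H28.ELayer

variable {X : Type*} [Group X] [Finite X]

/-- `O(H)` as a subgroup of the ambient group -/
def OO (H : Subgroup X) : Subgroup X := (oddCore H).map H.subtype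

omit [Finite X] in
theorem OO_le (H : Subgroup X) : OO H ≤ H := map_subtype_le _

theorem coprime_OO (H : Subgroup X) : (Nat.card (OO H)).Coprime 2 := by
  unfold OO
  rw [card_map_subtype]
  exact H1.Cores.coprime_card_pPrimeCore 2

theorem odd_OO (H : Subgroup X) : Odd (Nat.card (OO H)) :=
  Nat.coprime_two_right.mp (coprime_OO H)

omit [Finite X] in
theorem le_OO {H N : Subgroup X} (hNH : N ≤ H) (hn : H ≤ normalizer (N : Set X))
    (h : (Nat.card N).Coprime 2) : N ≤ OO H := by
  have h1 : N.subgroupOf H ≤ oddCore H := by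
    apply H1.Cores.le_pPrimeCore
    · exact (normal_subgroupOf_iff_le_normalizer hNH).mpr hn
    · rwa [card_subgroupOf hNH]
  have h2 := Subgroup.map_mono (f := H.subtype) h1
  rwa [subgroupOf_map_subtype, inf_eq_left.mpr hNH] at h2

omit [Finite X] in
theorem le_normalizer_OO (H : Subgroup X) : H ≤ normalizer (OO H : Set X) := by
  rw [← normal_subgroupOf_iff_le_normalizer (OO_le H)]
  have : (OO H).subgroupOf H = oddCore H := by
    unfold OO
    rw [← comap_subtype, comap_map_eq_self_of_injective H.subtype_injective]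
  rw [this]
  exact H1.Cores.pPrimeCore_normal 2

theorem cj_OO_le (g : X) (H : Subgroup X) : cj g (OO H) ≤ OO (cj g H) := by
  apply le_OO (cj_le_cj.mpr (OO_le H))
  · rw [← cj_normalizer]
    exact cj_le_cj.mpr (le_normalizer_OO H)
  · rw [card_cj]; exact coprime_OO H

theorem OO_cj (g : X) (H : Subgroup X) : OO (cj g H) = cj g (OO H) := by
  apply le_antisymm
  · rw [le_cj_iff]
    have := cj_OO_le g⁻¹ (cj g H)
    rwa [cj_inv_cj] at this
  · exact cj_OO_le g H

theorem normalizer_le_normalizer_OO (H : Subgroup X) :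
    normalizer (H : Set X) ≤ normalizer (OO H : Set X) := by
  intro g hg
  rw [mem_normalizer_iff_cj] at hg ⊢
  rw [← OO_cj, hg]

omit [Finite X] in
theorem normalizer_le_normalizer_centralizer (H : Subgroup X) :
    normalizer (H : Set X) ≤ normalizer (centralizer (H : Set X) : Set X) := by
  intro g hg
  rw [mem_normalizer_iff_cj] at hg ⊢
  rw [cj_centralizer, hg]

/-- `L_{2'}(X) O_{2',2}(X)` -/
abbrev Y (X : Type*) [Group X] : Subgroup X := pLayer 2 X ⊔ pPrimePCore 2 X

theorem Y_normal : (Y X).Normal := by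
  have h1 : (pLayer 2 X).Normal := H26.PComponents.pLayer_normal 2
  have h2 : (pPrimePCore 2 X).Normal := by
    have : (pCore 2 (X ⧸ pPrimeCore 2 X)).Normal := H1.Cores.pCore_normal 2
    unfold pPrimePCore
    infer_instance
  infer_instance

omit [Finite X] in
theorem def_eq : extendedTwoLayer X = pLayer 2 X ⊔ oddCore X ⊔
    ⨆ T : Sylow 2 ↥(Y X), OO (centralizer (((T : Subgroup ↥(Y X)).map (Y X).subtype : Subgroup X) :
      Set X)) := rfl

omit [Finite X] in
theorem cj_eq_of_normal {N : Subgroup X} (hN : N.Normal) (g : X) : cj g N = N := by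
  rw [← mem_normalizer_iff_cj, normalizer_eq_top_iff.mpr hN]
  exact mem_top g

theorem OO_le_ext {T : Subgroup X} (hT : IsSyl 2 T (Y X)) :
    OO (centralizer (T : Set X)) ≤ extendedTwoLayer X := by
  rw [def_eq]
  refine le_trans ?_ le_sup_right
  have h1 := le_iSup (fun T : Sylow 2 ↥(Y X) => OO (centralizer (((T : Subgroup ↥(Y X)).map
    (Y X).subtype : Subgroup X) : Set X))) hT.toSylow
  rwa [hT.map_toSylow] at h1

theorem ext_normal : (extendedTwoLayer X).Normal := by
  rw [← normalizer_eq_top_iff, eq_top_iff]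
  intro g _
  apply mem_normalizer_of_cj_le
  have h1 : (pLayer 2 X).Normal := H26.PComponents.pLayer_normal 2
  have h2 : (oddCore X).Normal := H1.Cores.pPrimeCore_normal 2
  conv_lhs => rw [def_eq]
  rw [cj_sup, cj_sup, cj_eq_of_normal h1, cj_eq_of_normal h2]
  refine sup_le ?_ ?_
  · rw [def_eq]; exact le_sup_left
  · unfold cj
    rw [Subgroup.map_iSup]
    refine iSup_le fun T => ?_
    have h3 := isSyl_map T
    have h4 := OO_le_ext (T := cj g ((T : Subgroup ↥(Y X)).map (Y X).subtype)) (by
      have := h3.cj g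
      rwa [cj_eq_of_normal Y_normal] at this)
    rw [← cj_centralizer, OO_cj] at h4
    exact h4

theorem index_pow : ∃ k, ((pLayer 2 X ⊔ oddCore X).relIndex (Y X)) ∣ 2 ^ k := by
  have hn1 : (pLayer 2 X).Normal := H26.PComponents.pLayer_normal 2
  have hn2 : (oddCore X).Normal := H1.Cores.pPrimeCore_normal 2
  have h1 : (oddCore X).relIndex (pPrimePCore 2 X) =
      Nat.card (pCore 2 (X ⧸ pPrimeCore 2 X)) := by
    have h2 := Subgroup.relIndex_ker (QuotientGroup.mk' (pPrimeCore 2 X)) (K := pPrimePCore 2 X)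
    rw [QuotientGroup.ker_mk'] at h2
    rw [h2]
    unfold pPrimePCore
    rw [Subgroup.map_comap_eq_self_of_surjective (QuotientGroup.mk'_surjective _)]
  obtain ⟨k, hk⟩ := IsPGroup.iff_card.mp (H1.Cores.isPGroup_pCore (G := X ⧸ pPrimeCore 2 X) 2)
  refine ⟨k, ?_⟩
  rw [← hk, ← h1]
  have hle : oddCore X ≤ pPrimePCore 2 X := by
    unfold pPrimePCore
    intro x hx
    rw [mem_comap]
    have : QuotientGroup.mk' (pPrimeCore 2 X) x = 1 := by
      rw [← MonoidHom.mem_ker, QuotientGroup.ker_mk']; exact hx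
    rw [this]; exact one_mem _
  have h3 : Y X = pPrimePCore 2 X ⊔ (pLayer 2 X ⊔ oddCore X) := by
    apply le_antisymm
    · exact sup_le (le_sup_left.trans le_sup_right) le_sup_left
    · exact sup_le le_sup_right (sup_le le_sup_left (hle.trans le_sup_right))
  have h4 : (pLayer 2 X ⊔ oddCore X).relIndex (Y X) =
      (pLayer 2 X ⊔ oddCore X).relIndex (pPrimePCore 2 X) := by
    rw [h3, H28.RelHall.relIndex_sup_eq]
    rw [normalizer_eq_top_iff.mpr inferInstance]; exact le_top
  rw [h4]
  exact relIndex_dvd_of_le_left _ le_sup_right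

theorem ext_eq {T : Subgroup X} (hT : IsSyl 2 T (Y X)) :
    extendedTwoLayer X = pLayer 2 X ⊔ oddCore X ⊔ OO (centralizer (T : Set X)) := by
  have hn1 : (pLayer 2 X).Normal := H26.PComponents.pLayer_normal 2
  have hn2 : (oddCore X).Normal := H1.Cores.pPrimeCore_normal 2
  set M := pLayer 2 X ⊔ oddCore X with hM
  have hMn : M.Normal := inferInstance
  have hle : oddCore X ≤ pPrimePCore 2 X := by
    unfold pPrimePCore
    intro x hx
    rw [mem_comap]
    have : QuotientGroup.mk' (pPrimeCore 2 X) x = 1 := by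
      rw [← MonoidHom.mem_ker, QuotientGroup.ker_mk']; exact hx
    rw [this]; exact one_mem _
  have hMY : M ≤ Y X := sup_le le_sup_left (hle.trans le_sup_right)
  have hYMT : M ⊔ T = Y X := by
    apply le_antisymm (sup_le hMY hT.le)
    rw [← relIndex_eq_one]
    obtain ⟨k, hk⟩ := index_pow (X := X)
    have h1 : (M ⊔ T).relIndex (Y X) ∣ 2 ^ k := (relIndex_dvd_of_le_left _ le_sup_left).trans hk
    have h2 : (M ⊔ T).relIndex (Y X) ∣ T.relIndex (Y X) := relIndex_dvd_of_le_left _ le_sup_right
    obtain ⟨j, -, hj⟩ := (Nat.dvd_prime_pow Nat.prime_two).mp h1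
    rw [hj] at h2 ⊢
    rcases Nat.eq_zero_or_pos j with rfl | hj0
    · exact pow_zero 2
    · exact absurd ((dvd_pow_self 2 hj0.ne').trans h2) hT.not_dvd
  apply le_antisymm
  · rw [def_eq]
    refine sup_le le_sup_left (iSup_le fun T' => ?_)
    have hT' := isSyl_map T'
    obtain ⟨y, hy, hyT⟩ := hT.exists_conj_eq hT'
    rw [hyT]
    rw [← hYMT, Subgroup.mem_sup_of_normal_left] at hy
    obtain ⟨m, hm, t, ht, rfl⟩ := hy
    rw [← cj_cj, cj_eq_self_of_mem ht, ← cj_centralizer, OO_cj]
    intro z hz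
    rw [mem_cj] at hz
    have h5 : z = m * (m⁻¹ * z * m) * m⁻¹ := by group
    rw [h5]
    have hm' : m ∈ M ⊔ OO (centralizer (T : Set X)) := mem_sup_left hm
    exact mul_mem (mul_mem hm' (mem_sup_right hz)) (inv_mem hm')
  · refine sup_le ?_ (OO_le_ext hT)
    rw [def_eq]; exact le_sup_left

theorem exists_odd : ∃ F : Subgroup X, Odd (Nat.card ↥F) ∧
    (∃ S : Sylow 2 X, (S : Subgroup X) ≤ normalizer (F : Set X)) ∧
    extendedTwoLayer X = pLayer 2 X ⊔ F := by
  have h2p : Fact (Nat.Prime 2) := ⟨Nat.prime_two⟩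
  have hn2 : (oddCore X).Normal := H1.Cores.pPrimeCore_normal 2
  obtain ⟨S⟩ := (inferInstance : Nonempty (Sylow 2 X))
  have hS : IsSyl 2 (S : Subgroup X) ⊤ := isSyl_top S
  have hYn : (Y X).Normal := Y_normal
  have hT : IsSyl 2 ((S : Subgroup X) ⊓ Y X) (Y X) :=
    hS.inf_normal (by rw [normalizer_eq_top_iff.mpr hYn]) le_top
  refine ⟨oddCore X ⊔ OO (centralizer (((S : Subgroup X) ⊓ Y X : Subgroup X) : Set X)), ?_,
    ⟨S, ?_⟩, ?_⟩
  · have h1 := H28.RelHall.card_sup_dvd (H := OO (centralizer (((S : Subgroup X) ⊓ Y X : Subgroup X) : Set X)))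
      (N := oddCore X) (by rw [normalizer_eq_top_iff.mpr hn2]; exact le_top)
    rw [sup_comm]
    refine Odd.of_dvd_nat ?_ h1
    exact (odd_OO _).mul (Nat.coprime_two_right.mp (H1.Cores.coprime_card_pPrimeCore 2))
  · have h1 : (S : Subgroup X) ≤ normalizer (((S : Subgroup X) ⊓ Y X : Subgroup X) : Set X) := by
      intro s hs
      rw [mem_normalizer_iff_cj, cj_inf, cj_eq_self_of_mem hs, cj_eq_of_normal hYn]
    have h2 := (h1.trans (normalizer_le_normalizer_centralizer _)).trans
      (normalizer_le_normalizer_OO _)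
    intro s hs
    rw [mem_normalizer_iff_cj, cj_sup, cj_eq_of_normal hn2, mem_normalizer_iff_cj.mp (h2 hs)]
  · rw [ext_eq hT, sup_assoc]

/-! ### 2-components are normal in `L*` -/

theorem inf_of_subnormal {p : ℕ} [hp : Fact p.Prime] {S K : Subgroup X} (hS : IsSyl p S ⊤)
    (hK : K.IsSubnormal) : IsSyl p (S ⊓ K) K := by
  induction hK with
  | top => rwa [inf_top_eq]
  | step H K h_le hSubn hN ih =>
    have h1 := ih.inf_normal ((normal_subgroupOf_iff_le_normalizer h_le).mp hN) h_le
    rwa [inf_assoc, inf_eq_right.mpr h_le] at h1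

/-- a perfect group with a central Sylow `p`-subgroup has order prime to `p` -/
theorem not_dvd_of_central {K : Type*} [Group K] [Finite K] {p : ℕ} [hp : Fact p.Prime]
    (hK : Group.IsPerfect K) (P : Sylow p K) (hP : (P : Subgroup K) ≤ center K) :
    ¬ p ∣ Nat.card K := by
  have h1 : normalizer ((P : Subgroup K) : Set K) ≤ centralizer ((P : Subgroup K) : Set K) := by
    intro x _
    rw [mem_centralizer_iff]
    intro y hy
    exact (mem_center_iff.mp (hP hy) x).symm
  have h2 := MonoidHom.ker_transferSylow_isComplement' P h1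
  set N := (MonoidHom.transferSylow P h1).ker with hN
  have hcomm : IsMulCommutative (P : Subgroup K) := by
    rw [← le_centralizer_iff_isMulCommutative]
    exact le_normalizer.trans h1
  have h3 : commutator K ≤ N := by
    rw [hN]
    have : IsMulCommutative (P : Subgroup K) := hcomm
    rw [commutator_def, Subgroup.commutator_le]
    intro a _ b _
    rw [MonoidHom.mem_ker, map_commutatorElement, commutatorElement_eq_one_iff_mul_comm]
    exact hcomm.is_comm.comm _ _
  rw [hK.commutator_eq_top, top_le_iff] at h3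
  rw [h3] at h2
  have h4 : (P : Subgroup K) = ⊥ := by
    have := h2.disjoint
    rwa [top_disjoint] at this
  intro hd
  have h5 := P.dvd_card_of_dvd_card hd
  rw [h4, Subgroup.card_bot] at h5
  exact hp.out.one_lt.ne' (Nat.dvd_one.mp h5)

theorem conj_isPComponent {K : Subgroup X} (hK : IsPComponent 2 K) (c : X) :
    IsPComponent 2 (cj c K) := by
  have h2p : Fact (Nat.Prime 2) := ⟨Nat.prime_two⟩
  exact (H26.PComponents.map_mulEquiv_iff (MulAut.conj c)).mpr hK

theorem two_dvd {K : Subgroup X} (hK : IsPComponent 2 K) : 2 ∣ Nat.card K := by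
  have h2p : Fact (Nat.Prime 2) := ⟨Nat.prime_two⟩
  have h1 := H26.PComponents.dvd_card_of_component (p := 2)
    (H1.Cores.pPrimeCore_quotient_pPrimeCore 2) (H26.PComponents.isComponent_map hK)
  exact h1.trans (Subgroup.card_map_dvd _ _)

theorem centralizer_le_normalizer {K T : Subgroup X} (hK : IsPComponent 2 K)
    (hT : IsSyl 2 T (Y X)) : centralizer (T : Set X) ≤ normalizer (K : Set X) := by
  have h2p : Fact (Nat.Prime 2) := ⟨Nat.prime_two⟩
  intro c hc
  by_contra hcK
  have hne : cj c K ≠ K := fun h => hcK (mem_normalizer_iff_cj.mpr h)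
  have hcomm := H26.PComponents.commutator_le_pPrimeCore hK (conj_isPComponent hK c) hne.symm
  obtain ⟨S, hS, hTS⟩ := exists_isSyl_ge (H := ⊤) hT.isPGroup le_top
  have hSK := inf_of_subnormal hS hK.1
  have hKY : K ≤ Y X := (H26.PComponents.le_pLayer hK).trans le_sup_left
  have hSY : S ⊓ Y X = T :=
    hT.eq_of_le (hS.isPGroup.to_le inf_le_left) (le_inf hTS hT.le) inf_le_right
  have hSKT : S ⊓ K ≤ T := by
    rw [← hSY]; exact inf_le_inf_left _ hKY
  have h1 : S ⊓ K ≤ cj c K := by
    intro s hs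
    have h2 : s * c = c * s := mem_centralizer_iff.mp hc s (hSKT hs)
    rw [mem_cj]
    have h3 : c⁻¹ * s * c = s := by rw [mul_assoc, h2]; group
    rw [h3]; exact hs.2
  have h4 : ⁅K, S ⊓ K⁆ ≤ oddCore X := (commutator_mono le_rfl h1).trans hcomm
  have hOn : (oddCore X).Normal := H1.Cores.pPrimeCore_normal 2
  set N : Subgroup K := (oddCore X).subgroupOf K with hN
  have hperf : Group.IsPerfect K := H26.PComponents.isPerfect hK
  have hperf' : Group.IsPerfect (K ⧸ N) := inferInstance
  have hf : Function.Surjective (QuotientGroup.mk' N) := QuotientGroup.mk'_surjective N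
  have h5 := not_dvd_of_central hperf' (hSK.toSylow.mapSurjective hf) (by
    rintro _ ⟨t, ht, rfl⟩
    rw [mem_center_iff]
    intro g
    obtain ⟨k, rfl⟩ := hf g
    have ht' : (t : X) ∈ S ⊓ K := by
      have : t ∈ ((hSK.toSylow : Sylow 2 K) : Subgroup K) := ht
      rw [hSK.coe_toSylow] at this
      exact this
    have h6 : ⁅(k : X), (t : X)⁆ ∈ oddCore X := h4 (commutator_mem_commutator k.2 ht')
    have h7 : (QuotientGroup.mk' N) ⁅k, t⁆ = 1 := by
      rw [← MonoidHom.mem_ker, QuotientGroup.ker_mk', hN, mem_subgroupOf]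
      exact h6
    rwa [map_commutatorElement, commutatorElement_eq_one_iff_mul_comm] at h7)
  apply h5
  have h6 : ¬ 2 ∣ Nat.card N := by
    intro hd
    have h7 : Nat.card N ∣ Nat.card (oddCore X) := by
      have h8 := Subgroup.card_dvd_of_le (inf_le_left : oddCore X ⊓ K ≤ oddCore X)
      rwa [← subgroupOf_map_subtype, card_map_subtype] at h8
    have h9 : (Nat.card (oddCore X)).Coprime 2 := H1.Cores.coprime_card_pPrimeCore 2
    have := Nat.dvd_gcd (hd.trans h7) (dvd_refl 2)
    rw [h9] at this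
    norm_num at this
  have h7 := two_dvd hK
  rw [Subgroup.card_eq_card_quotient_mul_card_subgroup N, Nat.prime_two.dvd_mul] at h7
  exact h7.resolve_right h6

theorem ext_le_normalizer {K : Subgroup X} (hK : IsPComponent 2 K) :
    extendedTwoLayer X ≤ normalizer (K : Set X) := by
  have h2p : Fact (Nat.Prime 2) := ⟨Nat.prime_two⟩
  rw [def_eq]
  refine sup_le (sup_le (H26.PComponents.pLayer_le_normalizer hK)
    (H26.PComponents.pPrimeCore_le_normalizer hK)) (iSup_le fun T => ?_)
  exact (OO_le _).trans (centralizer_le_normalizer hK (isSyl_map T))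

omit [Finite X] in
theorem le_ext {K : Subgroup X} (hK : IsPComponent 2 K) : K ≤ extendedTwoLayer X := by
  rw [def_eq]
  exact (H26.PComponents.le_pLayer hK).trans (le_sup_left.trans le_sup_left)

end H28.ELayer
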