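import Mathlib
import Cfsg.Prelude.Def_MonsterType
import Cfsg.Agent.Lib.H28.Cj
import Cfsg.Agent.Lib.H1.Coprime2
import Cfsg.Agent.Lib.H91.LargePair
import Cfsg.Agent.Lib.H3.Extraspecial

/-!
Automorphisms of odd order of large extraspecial subgroups.
-/

set_option autoImplicit false

open Cfsg Subgroup H28.Cj H91.LargePair
open scoped commutatorElement

namespace H28.LOdd

variable {G : Type*} [Group G]

/-- subgroups of `Q` with centre `{1, z}` -/
theorem extra_of [Finite G] {Q H : Subgroup G} {z : G} (hP : Pack Q z) (hH : H ≤ Q)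
    (hc : ∀ x ∈ H, (∀ y ∈ H, y * x = x * y) → x = 1 ∨ x = z)
    (hne : ∃ a ∈ H, ∃ b ∈ H, a * b ≠ b * a) : IsExtraspecial 2 H := by
  have h2p : Fact (Nat.Prime 2) := ⟨Nat.prime_two⟩
  obtain ⟨a, ha, b, hb, hab⟩ := hne
  have hzH : z ∈ H := by
    rcases hP.comm a (hH ha) b (hH hb) with h1 | h1
    · exfalso; apply hab
      rw [mul_inv_eq_one, mul_inv_eq_iff_eq_mul] at h1
      exact h1
    · rw [← h1]
      exact H.mul_mem (H.mul_mem (H.mul_mem ha hb) (H.inv_mem ha)) (H.inv_mem hb)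
  have hcz : (⟨z, hzH⟩ : H) ∈ center H := by
    rw [mem_center_iff]
    intro y
    exact Subtype.ext (hP.zc y (hH y.2))
  have hcen : ∀ x : H, x ∈ center H ↔ x = 1 ∨ x = ⟨z, hzH⟩ := by
    intro x
    constructor
    · intro hx
      rcases hc x x.2 (fun y hy => congrArg Subtype.val (mem_center_iff.mp hx ⟨y, hy⟩)) with h1 | h1
      · exact Or.inl (Subtype.ext h1)
      · exact Or.inr (Subtype.ext h1)
    · rintro (rfl | rfl)
      · exact one_mem _
      · exact hcz
  refine H3.Extraspecial.isExtraspecial_of (p := 2) ?_ ?_ ⟨⟨a, ha⟩, ⟨b, hb⟩, ?_⟩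
  · rw [commutator_def, commutator_le]
    intro x _ y _
    rw [hcen]
    rcases hP.comm x (hH x.2) y (hH y.2) with h1 | h1
    · exact Or.inl (Subtype.ext h1)
    · exact Or.inr (Subtype.ext h1)
  · have h1 : Nat.card (center H) = Set.ncard (center H : Set H) := rfl
    have h2 : (center H : Set H) = {1, ⟨z, hzH⟩} := by
      ext x
      rw [SetLike.mem_coe, hcen]
      rfl
    rw [h1, h2, Set.ncard_pair]
    intro h3
    exact hP.z1 (congrArg Subtype.val h3).symm
  · intro h1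
    apply hab
    have h2 := congrArg Subtype.val h1
    have h3 : a * b * a⁻¹ * b⁻¹ = 1 := h2
    rw [mul_inv_eq_one, mul_inv_eq_iff_eq_mul] at h3
    exact h3

theorem main [Finite G] (Q : Subgroup G) (hQ : Cfsg.IsLargeExtraspecial Q) (A : Subgroup G)
    (hA : A ≤ Subgroup.normalizer (Q : Set G)) (hAodd : Odd (Nat.card ↥A)) (hA1 : A ≠ ⊥) :
    (Q ⊓ Subgroup.centralizer (A : Set G)) ⊔ ⁅Q, A⁆ = Q ∧
    (∀ x ∈ Q ⊓ Subgroup.centralizer (A : Set G), ∀ y ∈ ⁅Q, A⁆, x * y = y * x) ∧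
    Cfsg.IsExtraspecial 2 ↥⁅Q, A⁆ ∧
    (Q ⊓ Subgroup.centralizer (A : Set G) = ((Subgroup.center ↥Q).map Q.subtype) ∨
      Cfsg.IsExtraspecial 2 ↥(Q ⊓ Subgroup.centralizer (A : Set G))) := by
  obtain ⟨z, hP, -, hmem⟩ := pack_of hQ.1 hQ.2.1 hQ.2.2.1
  have hQp : IsPGroup 2 Q := hQ.1.1.1
  have hcop : (Nat.card A).Coprime (Nat.card Q) := by
    have h2p : Fact (Nat.Prime 2) := ⟨Nat.prime_two⟩
    obtain ⟨n, hn⟩ := hQp.exists_card_eq
    rw [hn]
    exact Nat.Coprime.pow_right n (Nat.coprime_two_right.mpr hAodd)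
  have hsolv : Group.IsSolvable A ∨ Group.IsSolvable Q := by
    right
    have h2p : Fact (Nat.Prime 2) := ⟨Nat.prime_two⟩
    have : Group.IsNilpotent Q := hQp.isNilpotent
    infer_instance
  have hAQ : A ⊓ Q = ⊥ := by
    apply Subgroup.card_eq_one.mp
    apply Nat.eq_one_of_dvd_coprimes hcop
    · exact Subgroup.card_dvd_of_le inf_le_left
    · exact Subgroup.card_dvd_of_le inf_le_right
  -- `A` centralizes `z`
  have hAz : ∀ a ∈ A, a * z = z * a := by
    intro a ha
    have h1 : a * z * a⁻¹ = 1 ∨ a * z * a⁻¹ = z := by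
      apply hP.cen _ (conj_mem_of_le_normalizer hA ha hP.zQ)
      intro q hq
      have h2 := hP.zc _ (conj_mem_of_le_normalizer hA (A.inv_mem ha) hq)
      rw [inv_inv] at h2
      calc q * (a * z * a⁻¹) = a * (a⁻¹ * q * a * z) * a⁻¹ := by group
        _ = a * (z * (a⁻¹ * q * a)) * a⁻¹ := by rw [h2]
        _ = a * z * a⁻¹ * q := by group
    rcases h1 with h1 | h1
    · exfalso
      apply hP.z1
      rw [mul_inv_eq_one] at h1
      exact mul_eq_left.mp h1
    · exact mul_inv_eq_iff_eq_mul.mp h1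
  set C := Q ⊓ Subgroup.centralizer (A : Set G) with hC
  have hDQ : ⁅Q, A⁆ ≤ Q := H1.Coprime2.commutator_le_left hA
  have hsup : C ⊔ ⁅Q, A⁆ = Q := by
    rw [sup_comm]; exact H1.Coprime2.commutator_sup_centralizer A Q hA hcop hsolv
  have hCA : ∀ c ∈ C, ∀ a ∈ A, c * a = a * c := fun c hc a ha =>
    (mem_centralizer_iff.mp hc.2 a ha).symm
  have hcomm : ∀ x ∈ C, ∀ y ∈ ⁅Q, A⁆, x * y = y * x := by
    intro c hc y hy
    have h1 : ⁅Q, A⁆ ≤ centralizer ({c} : Set G) := by
      rw [commutator_le]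
      intro q hq a ha
      rw [mem_centralizer_singleton_iff, commutatorElement_def]
      have h2 := hCA c hc a ha
      have h3 := hP.comm c hc.1 q hq
      have h4 : ∃ e : G, c * q = e * q * c ∧ (∀ q ∈ Q, q * e = e * q) ∧ e * a = a * e := by
        rcases h3 with h3 | h3
        · rw [mul_inv_eq_iff_eq_mul, mul_inv_eq_iff_eq_mul] at h3
          exact ⟨1, h3, by simp, by simp⟩
        · rw [mul_inv_eq_iff_eq_mul, mul_inv_eq_iff_eq_mul] at h3
          exact ⟨z, h3, hP.zc, (hAz a ha).symm⟩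
      obtain ⟨e, h5, h6, h7⟩ := h4
      have h8 := h6 q hq
      have h9 : c * q * c⁻¹ = e * q := by rw [h5]; group
      have h10 : c * a * c⁻¹ = a := by rw [h2]; group
      have h11 : c * (q * a * q⁻¹ * a⁻¹) * c⁻¹ = q * a * q⁻¹ * a⁻¹ := by
        calc c * (q * a * q⁻¹ * a⁻¹) * c⁻¹
            = (c * q * c⁻¹) * (c * a * c⁻¹) * (c * q * c⁻¹)⁻¹ * (c * a * c⁻¹)⁻¹ := by group
          _ = (e * q) * a * (e * q)⁻¹ * a⁻¹ := by rw [h9, h10]
          _ = (q * (e * a) * e⁻¹ * q⁻¹) * a⁻¹ := by rw [← h8]; group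
          _ = q * a * q⁻¹ * a⁻¹ := by rw [h7]; group
      exact (mul_inv_eq_iff_eq_mul.mp h11).symm
    exact (mem_centralizer_singleton_iff.mp (h1 hy)).symm
  -- centralizing both factors
  have hboth : ∀ x, (∀ y ∈ C, y * x = x * y) → (∀ y ∈ ⁅Q, A⁆, y * x = x * y) → x = 1 ∨ x = z := by
    intro x h1 h2
    apply hP.C
    intro q hq
    have h3 : Q ≤ centralizer ({x} : Set G) := by
      rw [← hsup]
      exact sup_le (fun y hy => mem_centralizer_singleton_iff.mpr (h1 y hy))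
        (fun y hy => mem_centralizer_singleton_iff.mpr (h2 y hy))
    exact mem_centralizer_singleton_iff.mp (h3 hq)
  have hDc : ∀ x ∈ ⁅Q, A⁆, (∀ y ∈ ⁅Q, A⁆, y * x = x * y) → x = 1 ∨ x = z :=
    fun x hx h1 => hboth x (fun y hy => hcomm y hy x hx) h1
  have hCc : ∀ x ∈ C, (∀ y ∈ C, y * x = x * y) → x = 1 ∨ x = z :=
    fun x hx h1 => hboth x h1 (fun y hy => (hcomm x hx y hy).symm)
  refine ⟨hsup, hcomm, ?_, ?_⟩
  · apply extra_of hP hDQ hDc
    by_contra hab
    push Not at hab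
    have h1 : ⁅⁅Q, A⁆, A⁆ = ⊥ := by
      rw [commutator_eq_bot_iff_le_centralizer]
      intro x hx
      rw [mem_centralizer_iff]
      intro a ha
      rcases hDc x hx (fun y hy => hab y hy x hx) with rfl | rfl
      · simp
      · exact hAz a ha
    have h2 := H1.Coprime2.commutator_eq_bot_of A Q hA hcop hsolv h1
    rw [commutator_eq_bot_iff_le_centralizer, le_centralizer_iff] at h2
    apply hA1
    rw [eq_bot_iff, ← hAQ]
    refine le_inf le_rfl ?_
    intro a ha
    rcases hP.C a (fun q hq => mem_centralizer_iff.mp (h2 ha) q hq) with rfl | rfl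
    · exact one_mem _
    · exact hP.zQ
  · by_cases hab : ∃ a ∈ C, ∃ b ∈ C, a * b ≠ b * a
    · right
      exact extra_of hP inf_le_left hCc hab
    · left
      push Not at hab
      ext x
      rw [hmem]
      constructor
      · intro hx
        exact hCc x hx (fun y hy => hab y hy x hx)
      · rintro (rfl | rfl)
        · exact one_mem _
        · exact ⟨hP.zQ, mem_centralizer_iff.mpr hAz⟩

end H28.LOdd
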