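import Mathlib
import Cfsg.Prelude.Def_MonsterType
import Cfsg.Agent.Lib.H28.Cj
import Cfsg.Agent.Lib.H28.Sup
import Cfsg.Agent.Lib.H91.LargePair
import Cfsg.Agent.Lib.H91.LargePair2
import Cfsg.Agent.Lib.H1.Cores

/-!
Pairs of large extraspecial subgroups `Q`, `Q₁ = Q ^ g` with `z ∈ Q₁`, `s = z ^ g ∈ Q`.
-/

set_option autoImplicit false

open Cfsg Subgroup H28.Cj H91.LargePair
open scoped commutatorElement

namespace H28.LPair

variable {G : Type*} [Group G]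

structure Pair (Q Q1 : Subgroup G) (z s : G) : Prop where
  P : Pack Q z
  P1 : Pack Q1 s
  sQ : s ∈ Q
  zQ1 : z ∈ Q1
  sz : s ≠ z
  cjk : ∀ k, k * z * k⁻¹ = s → ∀ q ∈ Q, k * q * k⁻¹ ∈ Q1
  cjk' : ∀ k, k * s * k⁻¹ = z → ∀ q ∈ Q1, k * q * k⁻¹ ∈ Q

/-- the four-group -/
def VV (z s : G) : Subgroup G := closure ({z, s} : Set G)

theorem VV_comm (z s : G) : VV z s = VV s z := by unfold VV; rw [Set.pair_comm]

variable {Q Q1 : Subgroup G} {z s : G} (h : Pair Q Q1 z s)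

include h

theorem Pair.symm : Pair Q1 Q s z := ⟨h.P1, h.P, h.zQ1, h.sQ, h.sz.symm, h.cjk', h.cjk⟩

theorem Pair.zs : z * s = s * z := (h.P.zc s h.sQ).symm

theorem Pair.zi : z⁻¹ = z := inv_eq_of_mul_eq_one_left h.P.zz

theorem Pair.si : s⁻¹ = s := inv_eq_of_mul_eq_one_left h.P1.zz

theorem Pair.zs_sq : (z * s) * (z * s) = 1 := by
  rw [h.zs, ← mul_assoc, mul_assoc s z s, h.zs, ← mul_assoc, h.P1.zz, one_mul, h.P.zz]

theorem Pair.mem_V {x : G} : x ∈ VV z s ↔ x = 1 ∨ x = z ∨ x = s ∨ x = z * s := by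
  have hzi := h.zi
  have hsi := h.si
  have hzs := h.zs
  constructor
  · intro hx
    let W : Subgroup G :=
      { carrier := {x | x = 1 ∨ x = z ∨ x = s ∨ x = z * s}
        one_mem' := Or.inl rfl
        mul_mem' := by
          have e1 : z * (z * s) = s := by rw [← mul_assoc, h.P.zz, one_mul]
          have e2 : s * (z * s) = z := by rw [hzs, ← mul_assoc, h.P1.zz, one_mul]
          have e3 : z * s * z = s := by rw [hzs, mul_assoc, h.P.zz, mul_one]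
          have e4 : z * s * s = z := by rw [mul_assoc, h.P1.zz, mul_one]
          have e5 : z * s * (z * s) = 1 := h.zs_sq
          rintro a b (rfl | rfl | rfl | rfl) (rfl | rfl | rfl | rfl)
          all_goals simp only [Set.mem_ofPred_eq, mul_one, one_mul, h.P.zz, h.P1.zz, e1, e2, e3, e4,
            e5, true_or, or_true, ← hzs]
        inv_mem' := by
          rintro a (rfl | rfl | rfl | rfl)
          · left; simp
          · right; left; exact hzi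
          · right; right; left; exact hsi
          · right; right; right; rw [mul_inv_rev, hsi, hzi, hzs] }
    have hle : VV z s ≤ W := by
      unfold VV
      rw [closure_le]
      rintro y (rfl | rfl)
      · exact Or.inr (Or.inl rfl)
      · exact Or.inr (Or.inr (Or.inl rfl))
    exact hle hx
  · have h1 : z ∈ VV z s := subset_closure (Set.mem_insert _ _)
    have h2 : s ∈ VV z s := subset_closure (Set.mem_insert_of_mem _ rfl)
    rintro (rfl | rfl | rfl | rfl)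
    · exact one_mem _
    · exact h1
    · exact h2
    · exact mul_mem h1 h2

omit h in
theorem z_mem_V : z ∈ VV z s := subset_closure (Set.mem_insert _ _)

omit h in
theorem s_mem_V : s ∈ VV z s := subset_closure (Set.mem_insert_of_mem _ rfl)

omit h in
theorem mem_CV {x : G} : x ∈ centralizer (VV z s : Set G) ↔ x * z = z * x ∧ x * s = s * x := by
  unfold VV
  rw [Subgroup.centralizer_closure, mem_centralizer_iff]
  constructor
  · intro h1
    exact ⟨(h1 z (Set.mem_insert _ _)).symm, (h1 s (Set.mem_insert_of_mem _ rfl)).symm⟩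
  · rintro ⟨h1, h2⟩ y (rfl | rfl)
    · exact h1.symm
    · exact h2.symm

theorem Pair.Q_le_NV : Q ≤ normalizer (VV z s : Set G) := by
  apply le_normalizer_of_conj_mem
  intro q hq v hv
  have hz : q * z * q⁻¹ = z := by rw [h.P.zc q hq, mul_inv_cancel_right]
  have hs : q * s * q⁻¹ = s ∨ q * s * q⁻¹ = z * s := by
    rcases h.P.comm q hq s h.sQ with h1 | h1
    · left; exact mul_inv_eq_one.mp h1
    · right; exact mul_inv_eq_iff_eq_mul.mp h1
  have hs' : q * s * q⁻¹ ∈ VV z s := by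
    rcases hs with h1 | h1 <;> rw [h1]
    · exact s_mem_V
    · exact mul_mem z_mem_V s_mem_V
  rcases h.mem_V.mp hv with rfl | rfl | rfl | rfl
  · simp
  · rw [hz]; exact z_mem_V
  · exact hs'
  · have : q * (z * s) * q⁻¹ = (q * z * q⁻¹) * (q * s * q⁻¹) := by group
    rw [this, hz]
    exact mul_mem z_mem_V hs'

theorem Pair.Q1_le_NV : Q1 ≤ normalizer (VV z s : Set G) := by
  rw [VV_comm]; exact h.symm.Q_le_NV

omit h in
theorem N_le_NC (V : Subgroup G) :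
    normalizer (V : Set G) ≤ normalizer (centralizer (V : Set G) : Set G) := by
  intro g hg
  rw [mem_normalizer_iff_cj] at hg ⊢
  rw [cj_centralizer, hg]

/-- `C(V)` normalizes `Q` -/
theorem Pair.CV_le_NQ : centralizer (VV z s : Set G) ≤ normalizer (Q : Set G) :=
  le_normalizer_of_conj_mem fun c hc q hq => h.P.N c (mem_CV.mp hc).1 q hq

theorem Pair.CV_le_NQ1 : centralizer (VV z s : Set G) ≤ normalizer (Q1 : Set G) := by
  rw [VV_comm]; exact h.symm.CV_le_NQ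

theorem Pair.A_eq : Q ⊓ centralizer ({s} : Set G) = Q ⊓ centralizer (VV z s : Set G) := by
  ext x
  rw [mem_inf, mem_inf, mem_CV, mem_centralizer_singleton_iff]
  exact ⟨fun ⟨h1, h2⟩ => ⟨h1, h.P.zc x h1, h2⟩, fun ⟨h1, _, h3⟩ => ⟨h1, h3⟩⟩

theorem Pair.B_eq : Q1 ⊓ centralizer ({z} : Set G) = Q1 ⊓ centralizer (VV z s : Set G) := by
  rw [h.symm.A_eq, VV_comm]

omit h in
/-- the radical -/
def RR (Q Q1 : Subgroup G) (z s : G) : Subgroup G :=
  (Q1 ⊓ centralizer ({z} : Set G)) ⊔ (Q ⊓ centralizer ({s} : Set G))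

omit h in
theorem RR_comm (Q Q1 : Subgroup G) (z s : G) : RR Q Q1 z s = RR Q1 Q s z := sup_comm _ _

theorem Pair.R_le_CV : RR Q Q1 z s ≤ centralizer (VV z s : Set G) := by
  unfold RR
  rw [h.A_eq, h.B_eq]
  exact sup_le inf_le_right inf_le_right

omit h in
theorem R_le_X : RR Q Q1 z s ≤ Q ⊔ Q1 :=
  sup_le (inf_le_left.trans le_sup_right) (inf_le_left.trans le_sup_left)

theorem Pair.comm_mem_A {q c : G} (hq : q ∈ Q) (hc : c ∈ centralizer (VV z s : Set G)) :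
    q * c * q⁻¹ * c⁻¹ ∈ Q ⊓ centralizer ({s} : Set G) := by
  rw [h.A_eq]
  constructor
  · have : q * c * q⁻¹ * c⁻¹ = q * (c * q⁻¹ * c⁻¹) := by group
    rw [this]
    exact Q.mul_mem hq (conj_mem_of_le_normalizer h.CV_le_NQ hc (Q.inv_mem hq))
  · exact Subgroup.mul_mem _ (conj_mem_of_le_normalizer (h.Q_le_NV.trans (N_le_NC _)) hq hc)
      (Subgroup.inv_mem _ hc)

theorem Pair.comm_mem_B {q c : G} (hq : q ∈ Q1) (hc : c ∈ centralizer (VV z s : Set G)) :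
    q * c * q⁻¹ * c⁻¹ ∈ Q1 ⊓ centralizer ({z} : Set G) :=
  h.symm.comm_mem_A hq (by rwa [VV_comm] at hc)

theorem Pair.Q_le_NR : Q ≤ normalizer (RR Q Q1 z s : Set G) := by
  apply le_normalizer_of_conj_mem
  intro q hq r hr
  have h1 := h.comm_mem_A hq (h.R_le_CV hr)
  have h2 : q * r * q⁻¹ = (q * r * q⁻¹ * r⁻¹) * r := by group
  rw [h2]
  exact mul_mem ((le_sup_right : _ ≤ RR Q Q1 z s) h1) hr

theorem Pair.Q1_le_NR : Q1 ≤ normalizer (RR Q Q1 z s : Set G) := by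
  rw [RR_comm]; exact h.symm.Q_le_NR

theorem Pair.X_le_NR : Q ⊔ Q1 ≤ normalizer (RR Q Q1 z s : Set G) := sup_le h.Q_le_NR h.Q1_le_NR

theorem Pair.X_le_NV : Q ⊔ Q1 ≤ normalizer (VV z s : Set G) := sup_le h.Q_le_NV h.Q1_le_NV

theorem Pair.CV_le_NX : centralizer (VV z s : Set G) ≤ normalizer ((Q ⊔ Q1 : Subgroup G) : Set G) := by
  intro g hg
  rw [mem_normalizer_iff_cj, cj_sup, mem_normalizer_iff_cj.mp (h.CV_le_NQ hg),
    mem_normalizer_iff_cj.mp (h.CV_le_NQ1 hg)]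

/-! ### the radical: structure -/

theorem Pair.E_eq : (Q1 ⊓ centralizer ({z} : Set G)) ⊓ (Q ⊓ centralizer ({s} : Set G)) = Q ⊓ Q1 := by
  ext x
  simp only [mem_inf, mem_centralizer_singleton_iff]
  exact ⟨fun ⟨⟨h1, _⟩, h2, _⟩ => ⟨h2, h1⟩, fun ⟨h1, h2⟩ => ⟨⟨h2, h.P.zc x h1⟩, h1, h.P1.zc x h2⟩⟩

theorem Pair.E_elab : IsElementaryAbelian 2 (Q ⊓ Q1) := by
  have key : ∀ w : G, (w = 1 ∨ w = z) → (w = 1 ∨ w = s) → w = 1 := by
    rintro w (rfl | rfl) (h1 | h1)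
    · rfl
    · rfl
    · exact h1
    · exact absurd h1.symm h.sz
  refine ⟨⟨⟨?_⟩⟩, ?_⟩
  · rintro ⟨a, ha⟩ ⟨b, hb⟩
    apply Subtype.ext
    change a * b = b * a
    have h1 := key _ (h.P.comm a ha.1 b hb.1) (h.P1.comm a ha.2 b hb.2)
    rw [mul_inv_eq_one, mul_inv_eq_iff_eq_mul] at h1
    exact h1
  · intro a ha
    rw [pow_two]
    exact key _ (h.P.sq a ha.1) (h.P1.sq a ha.2)

theorem Pair.zE : z ∈ Q ⊓ Q1 := ⟨h.P.zQ, h.zQ1⟩

theorem Pair.sE : s ∈ Q ⊓ Q1 := ⟨h.sQ, h.P1.zQ⟩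

theorem Pair.V_le_E : VV z s ≤ Q ⊓ Q1 := by
  unfold VV
  rw [closure_le]
  rintro y (rfl | rfl)
  · exact h.zE
  · exact h.sE

theorem Pair.E_le_A : Q ⊓ Q1 ≤ Q ⊓ centralizer ({s} : Set G) := by
  rw [← h.E_eq]; exact inf_le_right

theorem Pair.V_le_R : VV z s ≤ RR Q Q1 z s :=
  (h.V_le_E.trans h.E_le_A).trans le_sup_right

theorem Pair.mem_R {x : G} : x ∈ RR Q Q1 z s ↔ ∃ b ∈ Q1 ⊓ centralizer ({z} : Set G),
    ∃ a ∈ Q ⊓ centralizer ({s} : Set G), x = b * a := by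
  apply H28.Sup.mem_sup_iff'
  apply le_normalizer_of_conj_mem
  intro b hb a ha
  rw [h.A_eq] at ha ⊢
  rw [h.B_eq] at hb
  exact ⟨conj_mem_of_le_normalizer h.CV_le_NQ hb.2 ha.1,
    Subgroup.mul_mem _ (Subgroup.mul_mem _ hb.2 ha.2) (Subgroup.inv_mem _ hb.2)⟩

/-- commutators of `A` and `B` lie in `E` -/
theorem Pair.comm_AB {a b : G} (ha : a ∈ Q ⊓ centralizer ({s} : Set G))
    (hb : b ∈ Q1 ⊓ centralizer ({z} : Set G)) : a * b * a⁻¹ * b⁻¹ ∈ Q ⊓ Q1 := by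
  rw [h.A_eq] at ha
  rw [h.B_eq] at hb
  refine ⟨(h.comm_mem_A ha.1 hb.2).1, ?_⟩
  exact Q1.mul_mem (conj_mem_of_le_normalizer h.CV_le_NQ1 ha.2 hb.1) (Q1.inv_mem hb.1)

omit h in
theorem conj_shift {E : Subgroup G} {x e : G} (hx : x * e * x⁻¹ * e⁻¹ ∈ E) (he : e ∈ E) :
    x * e * x⁻¹ ∈ E := by
  have : x * e * x⁻¹ = (x * e * x⁻¹ * e⁻¹) * e := by group
  rw [this]; exact mul_mem hx he

/-- commutators of `X` and `E` lie in `V` -/
theorem Pair.comm_XE {x e : G} (hx : x ∈ Q ⊔ Q1) (he : e ∈ Q ⊓ Q1) :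
    x * e * x⁻¹ * e⁻¹ ∈ VV z s := by
  let W : Subgroup G :=
    { carrier := {x | x ∈ normalizer (VV z s : Set G) ∧ ∀ e ∈ Q ⊓ Q1, x * e * x⁻¹ * e⁻¹ ∈ VV z s}
      one_mem' := ⟨one_mem _, fun e _ => by simp⟩
      mul_mem' := by
        rintro x y ⟨hx1, hx⟩ ⟨hy1, hy⟩
        refine ⟨mul_mem hx1 hy1, fun e he => ?_⟩
        have h1 : x * y * e * (x * y)⁻¹ * e⁻¹ =
            (x * (y * e * y⁻¹ * e⁻¹) * x⁻¹) * (x * e * x⁻¹ * e⁻¹) := by group
        rw [h1]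
        exact mul_mem ((mem_normalizer_iff.mp hx1 _).mp (hy e he)) (hx e he)
      inv_mem' := by
        rintro x ⟨hx1, hx⟩
        refine ⟨inv_mem hx1, fun e he => ?_⟩
        have h1 : x⁻¹ * e * x⁻¹⁻¹ * e⁻¹ = x⁻¹ * (x * e * x⁻¹ * e⁻¹)⁻¹ * x⁻¹⁻¹ := by group
        rw [h1]
        exact (mem_normalizer_iff.mp (inv_mem hx1) _).mp (inv_mem (hx e he)) }
  have hle : Q ⊔ Q1 ≤ W := by
    refine sup_le ?_ ?_
    · intro q hq
      refine ⟨h.Q_le_NV hq, fun e he => ?_⟩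
      rcases h.P.comm q hq e he.1 with h1 | h1 <;> rw [h1]
      · exact one_mem _
      · exact z_mem_V
    · intro q hq
      refine ⟨h.Q1_le_NV hq, fun e he => ?_⟩
      rcases h.P1.comm q hq e he.2 with h1 | h1 <;> rw [h1]
      · exact one_mem _
      · exact s_mem_V
  exact (hle hx).2 e he

theorem Pair.X_le_NE : Q ⊔ Q1 ≤ normalizer ((Q ⊓ Q1 : Subgroup G) : Set G) :=
  le_normalizer_of_conj_mem fun _ hx _ he => conj_shift (h.V_le_E (h.comm_XE hx he)) he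

/-- `R / E` is elementary abelian -/
theorem Pair.R_mod_E {x y : G} (hx : x ∈ RR Q Q1 z s) (hy : y ∈ RR Q Q1 z s) :
    x * y * x⁻¹ * y⁻¹ ∈ Q ⊓ Q1 := by
  have hRX := R_le_X (Q := Q) (Q1 := Q1) (z := z) (s := s)
  have step : ∀ y ∈ RR Q Q1 z s, (∀ a ∈ Q ⊓ centralizer ({s} : Set G), a * y * a⁻¹ * y⁻¹ ∈ Q ⊓ Q1) →
      (∀ b ∈ Q1 ⊓ centralizer ({z} : Set G), b * y * b⁻¹ * y⁻¹ ∈ Q ⊓ Q1) →
      ∀ x ∈ RR Q Q1 z s, x * y * x⁻¹ * y⁻¹ ∈ Q ⊓ Q1 := by
    intro y hy h1 h2 x hx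
    obtain ⟨b, hb, a, ha, rfl⟩ := h.mem_R.mp hx
    have h3 : b * a * y * (b * a)⁻¹ * y⁻¹ = (b * (a * y * a⁻¹ * y⁻¹) * b⁻¹) * (b * y * b⁻¹ * y⁻¹) := by
      group
    rw [h3]
    refine mul_mem ?_ (h2 b hb)
    exact conj_mem_of_le_normalizer h.X_le_NE (le_sup_right (α := Subgroup G) hb.1) (h1 a ha)
  have inv : ∀ x y : G, x * y * x⁻¹ * y⁻¹ ∈ Q ⊓ Q1 → y * x * y⁻¹ * x⁻¹ ∈ Q ⊓ Q1 := by
    intro x y h1
    have : y * x * y⁻¹ * x⁻¹ = (x * y * x⁻¹ * y⁻¹)⁻¹ := by group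
    rw [this]; exact inv_mem h1
  have hA : ∀ a ∈ Q ⊓ centralizer ({s} : Set G), ∀ a' ∈ Q ⊓ centralizer ({s} : Set G),
      a * a' * a⁻¹ * a'⁻¹ ∈ Q ⊓ Q1 := by
    intro a ha a' ha'
    rcases h.P.comm a ha.1 a' ha'.1 with h1 | h1 <;> rw [h1]
    · exact one_mem _
    · exact h.zE
  have hB : ∀ b ∈ Q1 ⊓ centralizer ({z} : Set G), ∀ b' ∈ Q1 ⊓ centralizer ({z} : Set G),
      b * b' * b⁻¹ * b'⁻¹ ∈ Q ⊓ Q1 := by
    intro a ha a' ha'
    rcases h.P1.comm a ha.1 a' ha'.1 with h1 | h1 <;> rw [h1]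
    · exact one_mem _
    · exact h.sE
  have hAR : ∀ a ∈ Q ⊓ centralizer ({s} : Set G), a ∈ RR Q Q1 z s := fun a ha =>
    (le_sup_right : _ ≤ RR Q Q1 z s) ha
  have hBR : ∀ a ∈ Q1 ⊓ centralizer ({z} : Set G), a ∈ RR Q Q1 z s := fun a ha =>
    (le_sup_left : _ ≤ RR Q Q1 z s) ha
  have sA : ∀ a ∈ Q ⊓ centralizer ({s} : Set G), ∀ x ∈ RR Q Q1 z s,
      x * a * x⁻¹ * a⁻¹ ∈ Q ⊓ Q1 := fun a ha =>
    step a (hAR a ha) (fun a' ha' => hA a' ha' a ha) (fun b hb => inv _ _ (h.comm_AB ha hb))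
  have sB : ∀ b ∈ Q1 ⊓ centralizer ({z} : Set G), ∀ x ∈ RR Q Q1 z s,
      x * b * x⁻¹ * b⁻¹ ∈ Q ⊓ Q1 := fun b hb =>
    step b (hBR b hb) (fun a' ha' => h.comm_AB ha' hb) (fun b' hb' => hB b' hb' b hb)
  exact step y hy (fun a ha => inv _ _ (sA a ha y hy)) (fun b hb => inv _ _ (sB b hb y hy)) x hx

theorem Pair.R_sq {x : G} (hx : x ∈ RR Q Q1 z s) : x ^ 2 ∈ Q ⊓ Q1 := by
  obtain ⟨b, hb, a, ha, rfl⟩ := h.mem_R.mp hx
  have h1 := h.comm_AB ha hb
  have h2 : (b * a) ^ 2 = (b * (a * b * a⁻¹ * b⁻¹) * b⁻¹) * (b * b) * (a * a) := by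
    rw [pow_two]; group
  rw [h2]
  have h3 : b * b ∈ Q ⊓ Q1 := by
    rcases h.P1.sq b hb.1 with h1 | h1 <;> rw [h1]
    · exact one_mem _
    · exact h.sE
  have h4 : a * a ∈ Q ⊓ Q1 := by
    rcases h.P.sq a ha.1 with h1 | h1 <;> rw [h1]
    · exact one_mem _
    · exact h.zE
  exact mul_mem (mul_mem (conj_mem_of_le_normalizer h.X_le_NE (le_sup_right (α := Subgroup G) hb.1) h1)
    h3) h4

/-- the centre of `R` is `V` -/
theorem Pair.center_R {x : G} (hx : x ∈ RR Q Q1 z s) (hc : ∀ y ∈ RR Q Q1 z s, y * x = x * y) :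
    x ∈ VV z s := by
  obtain ⟨q, hq, hqs⟩ := h.P.exists_shift h.sQ h.P1.z1 h.sz
  have hAR : ∀ a ∈ Q ⊓ centralizer ({s} : Set G), a ∈ RR Q Q1 z s := fun a ha =>
    (le_sup_right : _ ≤ RR Q Q1 z s) ha
  have hxV := mem_CV.mp (h.R_le_CV hx)
  -- `v = x q x⁻¹ q⁻¹`
  have hxQ : x * q * x⁻¹ ∈ Q := h.P.N x hxV.1 q hq
  set v := x * q * x⁻¹ * q⁻¹ with hv
  have hvQ : v ∈ Q := Q.mul_mem hxQ (Q.inv_mem hq)
  have hAn : ∀ a ∈ Q, a * s = s * a → q * a * q⁻¹ ∈ Q ⊓ centralizer ({s} : Set G) := by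
    intro a ha has
    rw [h.A_eq]
    refine ⟨Q.mul_mem (Q.mul_mem hq ha) (Q.inv_mem hq), ?_⟩
    exact conj_mem_of_le_normalizer (h.Q_le_NV.trans (N_le_NC _)) hq (mem_CV.mpr ⟨h.P.zc a ha, has⟩)
  have hAn' : ∀ a ∈ Q, a * s = s * a → q⁻¹ * a * q ∈ Q ⊓ centralizer ({s} : Set G) := by
    intro a ha has
    rw [h.A_eq]
    refine ⟨Q.mul_mem (Q.mul_mem (Q.inv_mem hq) ha) hq, ?_⟩
    have := conj_mem_of_le_normalizer (h.Q_le_NV.trans (N_le_NC _)) (Q.inv_mem hq)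
      (mem_CV.mpr ⟨h.P.zc a ha, has⟩)
    rwa [inv_inv] at this
  have hvA : ∀ a ∈ Q, a * s = s * a → a * v = v * a := by
    intro a ha has
    have h1 := hc _ (hAR _ (hAn' a ha has))
    have h2 := hc a (hAR a ⟨ha, mem_centralizer_singleton_iff.mpr has⟩)
    -- `q⁻¹ a q` commutes with `x`
    have h3 : (q⁻¹ * a * q) * x * (q⁻¹ * a * q)⁻¹ = x := by rw [h1, mul_inv_cancel_right]
    have h4 : a * x * a⁻¹ = x := by rw [h2, mul_inv_cancel_right]
    have h5 : a * (q * x * q⁻¹) * a⁻¹ = q * x * q⁻¹ := by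
      calc a * (q * x * q⁻¹) * a⁻¹ = q * ((q⁻¹ * a * q) * x * (q⁻¹ * a * q)⁻¹) * q⁻¹ := by group
        _ = _ := by rw [h3]
    have h6 : a * v * a⁻¹ = v := by
      have h7 : v = x * (q * x * q⁻¹)⁻¹ := by rw [hv]; group
      rw [h7]
      calc a * (x * (q * x * q⁻¹)⁻¹) * a⁻¹ = (a * x * a⁻¹) * (a * (q * x * q⁻¹) * a⁻¹)⁻¹ := by group
        _ = _ := by rw [h4, h5]
    exact mul_inv_eq_iff_eq_mul.mp h6
  have hdec : ∀ y ∈ Q, y * s = s * y ∨ (q⁻¹ * y) * s = s * (q⁻¹ * y) := by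
    intro y hy
    rcases h.P.comm y hy s h.sQ with h' | h'
    · left; rw [mul_inv_eq_one, mul_inv_eq_iff_eq_mul] at h'; exact h'
    · right
      rw [mul_inv_eq_iff_eq_mul] at h'
      rw [← mul_inv_eq_iff_eq_mul]
      have h8 : q⁻¹ * (z * s) * q = s := by rw [← hqs]; group
      calc q⁻¹ * y * s * (q⁻¹ * y)⁻¹ = q⁻¹ * (y * s * y⁻¹) * q := by group
        _ = s := by rw [h', h8]
  -- if `w` commutes with `A` and with `q` then it is in `V`
  have fin : ∀ w, (∀ a ∈ Q, a * s = s * a → a * w = w * a) → q * w = w * q → w ∈ VV z s := by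
    intro w h1 h2
    have h3 : w = 1 ∨ w = z := by
      apply h.P.C
      intro y hy
      rcases hdec y hy with h4 | h4
      · exact h1 y hy h4
      · have h5 := h1 _ (Q.mul_mem (Q.inv_mem hq) hy) h4
        calc y * w = q * ((q⁻¹ * y) * w) := by group
          _ = q * (w * (q⁻¹ * y)) := by rw [h5]
          _ = (q * w) * (q⁻¹ * y) := by group
          _ = (w * q) * (q⁻¹ * y) := by rw [h2]
          _ = w * y := by group
    rcases h3 with rfl | rfl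
    · exact one_mem _
    · exact z_mem_V
  have hxA : ∀ a ∈ Q, a * s = s * a → a * x = x * a := fun a ha has =>
    hc a (hAR a ⟨ha, mem_centralizer_singleton_iff.mpr has⟩)
  have hqz : q * z = z * q := h.P.zc q hq
  -- `v` commutes with `q`
  have hvq : v = 1 ∨ v = z := by
    have h1 := h.P.double_cen h.sQ h.P1.z1 h.sz hvQ hvA
    have hvV : v ∈ VV z s := by
      rw [h.mem_V]
      rcases h1 with h1 | h1 | h1 | h1
      · exact Or.inl h1
      · exact Or.inr (Or.inl h1)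
      · exact Or.inr (Or.inr (Or.inl h1))
      · exact Or.inr (Or.inr (Or.inr (by rw [h1, h.zs])))
    have hvv : v * v = 1 := by
      have := h.E_elab.2 v (h.V_le_E hvV)
      rwa [pow_two] at this
    have hxv : x * v = v * x := by
      have := mem_centralizer_iff.mp (h.R_le_CV hx) v hvV
      exact this.symm
    -- x q = v q x
    have e1 : x * q = v * q * x := by rw [hv]; group
    have e2 : x * (q * q) = (q * q) * x := by
      rcases h.P.sq q hq with h2 | h2 <;> rw [h2]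
      · simp
      · exact hxV.1
    have e3 : x * (q * q) = v * (q * v * q⁻¹) * ((q * q) * x) := by
      calc x * (q * q) = (x * q) * q := by group
        _ = (v * q * x) * q := by rw [e1]
        _ = v * q * (x * q) := by group
        _ = v * q * (v * q * x) := by rw [e1]
        _ = _ := by group
    rw [e2] at e3
    have e4 : v * (q * v * q⁻¹) = 1 := by
      have := mul_right_cancel (b := (q * q) * x) (a := 1) (c := v * (q * v * q⁻¹)) (by
        rw [one_mul]; exact e3)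
      exact this.symm
    have e5 : q * v * q⁻¹ = v := by
      have h2 : v⁻¹ = v := inv_eq_of_mul_eq_one_left hvv
      rw [← h2, eq_inv_iff_mul_eq_one, h2]
      have h3 : (q * v * q⁻¹) = v⁻¹ := (eq_inv_of_mul_eq_one_right e4)
      rw [h3, h2, hvv]
    have e6 : q * v = v * q := mul_inv_eq_iff_eq_mul.mp e5
    apply h.P.C
    intro y hy
    rcases hdec y hy with h4 | h4
    · exact hvA y hy h4
    · have h5 := hvA _ (Q.mul_mem (Q.inv_mem hq) hy) h4
      calc y * v = q * ((q⁻¹ * y) * v) := by group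
        _ = q * (v * (q⁻¹ * y)) := by rw [h5]
        _ = (q * v) * (q⁻¹ * y) := by group
        _ = (v * q) * (q⁻¹ * y) := by rw [e6]
        _ = v * y := by group
  rcases hvq with h1 | h1
  · apply fin x hxA
    rw [hv, mul_inv_eq_one, mul_inv_eq_iff_eq_mul] at h1
    exact h1.symm
  · -- `s x`
    have h2 : s * x ∈ VV z s := by
      apply fin
      · intro a ha has
        rw [← mul_assoc, has, mul_assoc, hxA a ha has, mul_assoc]
      · have e1 : x * q = z * q * x := by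
          rw [hv, mul_inv_eq_iff_eq_mul, mul_inv_eq_iff_eq_mul] at h1
          exact h1
        have e2 : q * s = z * s * q := mul_inv_eq_iff_eq_mul.mp hqs
        calc q * (s * x) = (q * s) * x := by group
          _ = s * (z * q * x) := by rw [e2, h.zs]; group
          _ = s * x * q := by rw [← e1]; group
    have h3 : x = s⁻¹ * (s * x) := by group
    rw [h3]
    exact mul_mem (inv_mem s_mem_V) h2

end H28.LPair
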