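import Mathlib
import Cfsg.Agent.Lib.H28.LPair

/-!
Pairs of large extraspecial subgroups, continued: `X / R ≅ S₃`.
-/

set_option autoImplicit false

open Cfsg Subgroup H28.Cj H91.LargePair
open scoped commutatorElement

namespace H28.LPair

variable {G : Type*} [Group G]

theorem exists_pair [Finite G] {Q : Subgroup G} (hQ : Cfsg.IsLargeExtraspecial Q) {z : G}
    (hz : ((Subgroup.center ↥Q).map Q.subtype) = Subgroup.zpowers z) (hz2 : orderOf z = 2)
    {w : ℕ} (hw : 2 ≤ w) (hcard : Nat.card ↥Q = 2 ^ (2 * w + 1)) {g : G}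
    (hgH : g ∉ Subgroup.centralizer ({z} : Set G)) (hgQ : g * z * g⁻¹ ∈ Q) :
    Pair Q (Q.map (MulAut.conj g).toMonoidHom) z (g * z * g⁻¹) := by
  obtain ⟨z', hP, -, hmem⟩ := pack_of hQ.1 hQ.2.1 hQ.2.2.1
  have hzz' : z = z' := by
    have h1 : z ∈ (Subgroup.center ↥Q).map Q.subtype := by rw [hz]; exact mem_zpowers z
    rcases (hmem z).mp h1 with h2 | h2
    · rw [h2, orderOf_one] at hz2; omega
    · exact h2
  subst hzz'
  have hP1 := hP.conj g
  have hsz : g * z * g⁻¹ ≠ z := by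
    intro h1
    apply hgH
    rw [mem_centralizer_singleton_iff]
    exact mul_inv_eq_iff_eq_mul.mp h1
  have hcjk : ∀ k, k * z * k⁻¹ = g * z * g⁻¹ → ∀ q ∈ Q, k * q * k⁻¹ ∈
      Q.map (MulAut.conj g).toMonoidHom := by
    intro k hk q hq
    rw [mem_map_conj]
    have h1 : (g⁻¹ * k) * z = z * (g⁻¹ * k) := by
      rw [← mul_inv_eq_iff_eq_mul]
      calc g⁻¹ * k * z * (g⁻¹ * k)⁻¹ = g⁻¹ * (k * z * k⁻¹) * g := by group
        _ = z := by rw [hk]; group
    have h2 := hP.N _ h1 q hq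
    have h3 : g⁻¹ * (k * q * k⁻¹) * g = g⁻¹ * k * q * (g⁻¹ * k)⁻¹ := by group
    rwa [h3]
  have h8 : 8 < Nat.card Q := by
    rw [hcard]
    calc 8 < 2 ^ (2 * 2 + 1) := by norm_num
      _ ≤ 2 ^ (2 * w + 1) := Nat.pow_le_pow_right (by norm_num) (by omega)
  refine ⟨hP, hP1, hgQ, key hP hP1 hcjk hgQ hsz h8, hsz, hcjk, ?_⟩
  intro k hk q hq
  rw [mem_map_conj] at hq
  have h1 : (k * g) * z = z * (k * g) := by
    rw [← mul_inv_eq_iff_eq_mul]
    calc k * g * z * (k * g)⁻¹ = k * (g * z * g⁻¹) * k⁻¹ := by group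
      _ = z := hk
  have h2 := hP.N _ h1 _ hq
  have h3 : k * g * (g⁻¹ * q * g) * (k * g)⁻¹ = k * q * k⁻¹ := by group
  rwa [h3] at h2

variable {Q Q1 : Subgroup G} {z s : G} (h : Pair Q Q1 z s)

include h

/-- elements interchanging the involutions of `V` -/
theorem Pair.exists_q : ∃ q ∈ Q, q * s * q⁻¹ = z * s :=
  h.P.exists_shift h.sQ h.P1.z1 h.sz

theorem Pair.exists_y : ∃ y ∈ Q1, y * z * y⁻¹ = z * s := by
  obtain ⟨y, hy, h1⟩ := h.symm.exists_q
  exact ⟨y, hy, by rw [h1, h.zs]⟩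

theorem Pair.zs_ne_z : z * s ≠ z := fun h1 => h.P1.z1 (mul_eq_left.mp h1)

theorem Pair.zs_ne_s : z * s ≠ s := fun h1 => h.P.z1 (mul_eq_right.mp h1)

theorem Pair.zs_ne_one : z * s ≠ 1 := by
  intro h1
  have := eq_inv_of_mul_eq_one_left h1
  rw [h.si] at this
  exact h.sz this.symm

/-- an element of `Q` moving `s` lies in `A q` -/
theorem Pair.mem_Aq {q u : G} (hq : q ∈ Q) (hqs : q * s * q⁻¹ = z * s) (hu : u ∈ Q) :
    u ∈ Q ⊓ centralizer ({s} : Set G) ∨ u * q⁻¹ ∈ Q ⊓ centralizer ({s} : Set G) := by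
  rcases h.P.comm u hu s h.sQ with h1 | h1
  · left
    refine ⟨hu, ?_⟩
    change u ∈ centralizer ({s} : Set G)
    rw [mem_centralizer_singleton_iff]
    rw [mul_inv_eq_one, mul_inv_eq_iff_eq_mul] at h1
    exact h1
  · right
    refine ⟨Q.mul_mem hu (Q.inv_mem hq), ?_⟩
    change u * q⁻¹ ∈ centralizer ({s} : Set G)
    rw [mem_centralizer_singleton_iff]
    rw [mul_inv_eq_iff_eq_mul] at h1
    have h2 : q⁻¹ * s * q = z * s := by
      have e1 : q⁻¹ * (z * s) * q = s := by rw [← hqs]; group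
      have e2 : q⁻¹ * z * q = z := by
        have := h.P.zc q hq
        rw [mul_assoc, ← this]; group
      have e3 : q⁻¹ * (z * s) * q = (q⁻¹ * z * q) * (q⁻¹ * s * q) := by group
      rw [e3, e2] at e1
      calc q⁻¹ * s * q = z * z * (q⁻¹ * s * q) := by rw [h.P.zz, one_mul]
        _ = z * (z * (q⁻¹ * s * q)) := mul_assoc _ _ _
        _ = z * s := by rw [e1]
    have e4 : u * z = z * u := h.P.zc u hu
    have e5 : u * q⁻¹ * s * (u * q⁻¹)⁻¹ = s := by
      calc u * q⁻¹ * s * (u * q⁻¹)⁻¹ = u * (q⁻¹ * s * q) * u⁻¹ := by group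
        _ = u * z * s * u⁻¹ := by rw [h2]; group
        _ = z * (u * s * u⁻¹) := by rw [e4]; group
        _ = s := by rw [h1, ← mul_assoc, h.P.zz, one_mul]
    exact mul_inv_eq_iff_eq_mul.mp e5

/-- the braid relation modulo `R` -/
theorem Pair.braid {q y : G} (hq : q ∈ Q) (hqs : q * s * q⁻¹ = z * s) (hy : y ∈ Q1)
    (hyz : y * z * y⁻¹ = z * s) : ∃ r ∈ RR Q Q1 z s, y * q * y = r * (q * y * q) := by
  have hqz : q * z * q⁻¹ = z := by rw [h.P.zc q hq, mul_inv_cancel_right]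
  have hys : y * s * y⁻¹ = s := by rw [h.P1.zc y hy, mul_inv_cancel_right]
  have hyzs : y * (z * s) * y⁻¹ = z := by
    calc y * (z * s) * y⁻¹ = (y * z * y⁻¹) * (y * s * y⁻¹) := by group
      _ = z := by rw [hyz, hys, mul_assoc, h.P1.zz, mul_one]
  have hqzs : q * (z * s) * q⁻¹ = s := by
    calc q * (z * s) * q⁻¹ = (q * z * q⁻¹) * (q * s * q⁻¹) := by group
      _ = s := by rw [hqz, hqs, ← mul_assoc, h.P.zz, one_mul]
  set k := q * y * q⁻¹ with hk
  have hqz' : q⁻¹ * z * q = z := by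
    have := h.P.zc q hq
    rw [mul_assoc, ← this]; group
  have hkz : k * z * k⁻¹ = s := by
    calc k * z * k⁻¹ = q * (y * (q⁻¹ * z * q) * y⁻¹) * q⁻¹ := by rw [hk]; group
      _ = s := by rw [hqz', hyz, hqzs]
  have hks : k⁻¹ * z * k = s := by
    have e0 : q⁻¹ * s * q = z * s := by
      calc q⁻¹ * s * q = q⁻¹ * (q * (z * s) * q⁻¹) * q := by rw [hqzs]
        _ = z * s := by group
    have e1 : k * s * k⁻¹ = z := by
      calc k * s * k⁻¹ = q * (y * (q⁻¹ * s * q) * y⁻¹) * q⁻¹ := by rw [hk]; group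
        _ = z := by rw [e0, hyzs, hqz]
    rw [← e1]; group
  have hkq : k * q * k⁻¹ ∈ Q1 := h.cjk k hkz q hq
  rcases h.symm.mem_Aq (q := y) (u := k * q * k⁻¹) hy (by rw [hyz, h.zs]) hkq with h1 | h1
  · exfalso
    have h2 := mem_centralizer_singleton_iff.mp h1.2
    have h3 : q * s = s * q := by
      rw [← hks]
      have h4 : k * q * k⁻¹ * z * (k * q * k⁻¹)⁻¹ = z := by rw [h2, mul_inv_cancel_right]
      rw [← mul_inv_eq_iff_eq_mul]
      calc q * (k⁻¹ * z * k) * q⁻¹ = k⁻¹ * (k * q * k⁻¹ * z * (k * q * k⁻¹)⁻¹) * k := by group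
        _ = k⁻¹ * z * k := by rw [h4]
    rw [h3, mul_inv_cancel_right] at hqs
    exact h.zs_ne_s hqs.symm
  · -- `k q k⁻¹ = b y`
    have hb : k * q * k⁻¹ * y⁻¹ ∈ RR Q Q1 z s := (le_sup_left : _ ≤ RR Q Q1 z s) h1
    refine ⟨(k * q * k⁻¹ * y⁻¹)⁻¹, inv_mem hb, ?_⟩
    have e1 : (k * q * k⁻¹ * y⁻¹)⁻¹ * (q * y * q) = y * (k * q⁻¹ * k⁻¹) * (q * y * q) := by group
    rw [e1, hk]
    group

/-- `X = R ∪ R q ∪ ...` -/
theorem Pair.X_words {q y : G} (hq : q ∈ Q) (hqs : q * s * q⁻¹ = z * s) (hy : y ∈ Q1)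
    (hyz : y * z * y⁻¹ = z * s) {x : G} (hx : x ∈ Q ⊔ Q1) :
    ∃ r ∈ RR Q Q1 z s, x = r ∨ x = r * q ∨ x = r * y ∨ x = r * (q * y) ∨ x = r * (y * q) ∨
      x = r * (q * y * q) := by
  have hqX : q ∈ Q ⊔ Q1 := (le_sup_left : Q ≤ Q ⊔ Q1) hq
  have hyX : y ∈ Q ⊔ Q1 := (le_sup_right : Q1 ≤ Q ⊔ Q1) hy
  obtain ⟨r0, hr0, hbr⟩ := h.braid hq hqs hy hyz
  have hqq : q * q ∈ RR Q Q1 z s := by
    rcases h.P.sq q hq with h1 | h1 <;> rw [h1]
    · exact one_mem _
    · exact h.V_le_R z_mem_V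
  have hyy : y * y ∈ RR Q Q1 z s := by
    rcases h.P1.sq y hy with h1 | h1 <;> rw [h1]
    · exact one_mem _
    · exact h.V_le_R s_mem_V
  have hcj : ∀ w ∈ Q ⊔ Q1, ∀ r ∈ RR Q Q1 z s, w * r * w⁻¹ ∈ RR Q Q1 z s := fun w hw r hr =>
    conj_mem_of_le_normalizer h.X_le_NR hw hr
  -- right multiplication by `R`
  let S : Set G := {x | x ∈ Q ⊔ Q1 ∧ ∃ r ∈ RR Q Q1 z s, x = r ∨ x = r * q ∨ x = r * y ∨
    x = r * (q * y) ∨ x = r * (y * q) ∨ x = r * (q * y * q)}
  have hSl : ∀ r ∈ RR Q Q1 z s, ∀ x ∈ S, r * x ∈ S := by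
    rintro r hr x ⟨hxX, r', hr', h1⟩
    refine ⟨mul_mem (R_le_X hr) hxX, r * r', mul_mem hr hr', ?_⟩
    rcases h1 with rfl | rfl | rfl | rfl | rfl | rfl
    · exact Or.inl rfl
    · exact Or.inr (Or.inl (by group))
    · exact Or.inr (Or.inr (Or.inl (by group)))
    · exact Or.inr (Or.inr (Or.inr (Or.inl (by group))))
    · exact Or.inr (Or.inr (Or.inr (Or.inr (Or.inl (by group)))))
    · exact Or.inr (Or.inr (Or.inr (Or.inr (Or.inr (by group)))))
  have hSr : ∀ r ∈ RR Q Q1 z s, ∀ x ∈ S, x * r ∈ S := by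
    rintro r hr x hx
    have h1 : x * r = (x * r * x⁻¹) * x := by group
    rw [h1]
    exact hSl _ (hcj x hx.1 r hr) x hx
  have hSq : ∀ x ∈ S, x * q ∈ S := by
    rintro x ⟨hxX, r, hr, h1⟩
    refine ⟨mul_mem hxX hqX, ?_⟩
    rcases h1 with rfl | rfl | rfl | rfl | rfl | rfl
    · exact ⟨x, hr, Or.inr (Or.inl rfl)⟩
    · exact ⟨r * (q * q), mul_mem hr hqq, Or.inl (by group)⟩
    · exact ⟨r, hr, Or.inr (Or.inr (Or.inr (Or.inr (Or.inl (by group)))))⟩
    · exact ⟨r, hr, Or.inr (Or.inr (Or.inr (Or.inr (Or.inr (by group)))))⟩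
    · exact ⟨r * (y * (q * q) * y⁻¹), mul_mem hr (hcj y hyX _ hqq),
        Or.inr (Or.inr (Or.inl (by group)))⟩
    · exact ⟨r * ((q * y) * (q * q) * (q * y)⁻¹), mul_mem hr (hcj _ (mul_mem hqX hyX) _ hqq),
        Or.inr (Or.inr (Or.inr (Or.inl (by group))))⟩
  have hSy : ∀ x ∈ S, x * y ∈ S := by
    rintro x ⟨hxX, r, hr, h1⟩
    refine ⟨mul_mem hxX hyX, ?_⟩
    rcases h1 with rfl | rfl | rfl | rfl | rfl | rfl
    · exact ⟨x, hr, Or.inr (Or.inr (Or.inl rfl))⟩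
    · exact ⟨r, hr, Or.inr (Or.inr (Or.inr (Or.inl (by group))))⟩
    · exact ⟨r * (y * y), mul_mem hr hyy, Or.inl (by group)⟩
    · exact ⟨r * (q * (y * y) * q⁻¹), mul_mem hr (hcj q hqX _ hyy), Or.inr (Or.inl (by group))⟩
    · refine ⟨r * r0, mul_mem hr hr0, Or.inr (Or.inr (Or.inr (Or.inr (Or.inr ?_))))⟩
      calc r * (y * q) * y = r * (y * q * y) := by group
        _ = _ := by rw [hbr]; group
    · refine ⟨r * (q * r0 * q⁻¹) * (q * q), mul_mem (mul_mem hr (hcj q hqX _ hr0)) hqq,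
        Or.inr (Or.inr (Or.inr (Or.inr (Or.inl ?_))))⟩
      calc r * (q * y * q) * y = r * q * (y * q * y) := by group
        _ = _ := by rw [hbr]; group
  have hall : ∀ u ∈ ((Q : Set G) ∪ Q1), ∀ x ∈ S, x * u ∈ S := by
    rintro u (hu | hu) x hx
    · rcases h.mem_Aq hq hqs hu with h1 | h1
      · exact hSr u ((le_sup_right : _ ≤ RR Q Q1 z s) h1) x hx
      · have h2 : x * u = x * (u * q⁻¹) * q := by group
        rw [h2]
        exact hSq _ (hSr _ ((le_sup_right : _ ≤ RR Q Q1 z s) h1) x hx)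
    · rcases h.symm.mem_Aq (q := y) (u := u) hy (by rw [hyz, h.zs]) hu with h1 | h1
      · exact hSr u ((le_sup_left : _ ≤ RR Q Q1 z s) h1) x hx
      · have h2 : x * u = x * (u * y⁻¹) * y := by group
        rw [h2]
        exact hSy _ (hSr _ ((le_sup_left : _ ≤ RR Q Q1 z s) h1) x hx)
  have hone : (1 : G) ∈ S := ⟨one_mem _, 1, one_mem _, Or.inl rfl⟩
  have hX : Q ⊔ Q1 = closure ((Q : Set G) ∪ Q1) := by
    rw [Subgroup.closure_union, Subgroup.closure_eq, Subgroup.closure_eq]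
  have hxS : x ∈ S := by
    rw [hX] at hx
    refine Subgroup.closure_induction_right (p := fun x _ => x ∈ S) hone ?_ ?_ hx
    · intro x _ u hu hxS
      exact hall u hu x hxS
    · intro x _ u hu hxS
      apply hall u⁻¹ _ x hxS
      rcases hu with hu | hu
      · exact Or.inl (Q.inv_mem hu)
      · exact Or.inr (Q1.inv_mem hu)
  exact hxS.2

/-- `R = X ∩ C(V)` -/
theorem Pair.R_eq : RR Q Q1 z s = (Q ⊔ Q1) ⊓ centralizer (VV z s : Set G) := by
  apply le_antisymm (le_inf R_le_X h.R_le_CV)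
  rintro x ⟨hxX, hxC⟩
  obtain ⟨q, hq, hqs⟩ := h.exists_q
  obtain ⟨y, hy, hyz⟩ := h.exists_y
  obtain ⟨r, hr, h1⟩ := h.X_words hq hqs hy hyz hxX
  have hqz : q * z * q⁻¹ = z := by rw [h.P.zc q hq, mul_inv_cancel_right]
  have hys : y * s * y⁻¹ = s := by rw [h.P1.zc y hy, mul_inv_cancel_right]
  have hqzs : q * (z * s) * q⁻¹ = s := by
    calc q * (z * s) * q⁻¹ = (q * z * q⁻¹) * (q * s * q⁻¹) := by group
      _ = s := by rw [hqz, hqs, ← mul_assoc, h.P.zz, one_mul]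
  have hrC := h.R_le_CV hr
  have aux : ∀ w, x = r * w → w * z * w⁻¹ = z ∧ w * s * w⁻¹ = s := by
    intro w hw
    have h2 : w ∈ centralizer (VV z s : Set G) := by
      have : w = r⁻¹ * x := by rw [hw]; group
      rw [this]
      exact Subgroup.mul_mem _ (Subgroup.inv_mem _ hrC) hxC
    have h3 := mem_CV.mp h2
    exact ⟨by rw [h3.1, mul_inv_cancel_right], by rw [h3.2, mul_inv_cancel_right]⟩
  rcases h1 with h1 | h1 | h1 | h1 | h1 | h1
  · rw [h1]; exact hr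
  · have := (aux _ h1).2
    rw [hqs] at this
    exact absurd this h.zs_ne_s
  · have := (aux _ h1).1
    rw [hyz] at this
    exact absurd this h.zs_ne_z
  · have := (aux _ h1).1
    have e : q * y * z * (q * y)⁻¹ = q * (y * z * y⁻¹) * q⁻¹ := by group
    rw [e, hyz, hqzs] at this
    exact absurd this h.sz
  · have := (aux _ h1).1
    have e : y * q * z * (y * q)⁻¹ = y * (q * z * q⁻¹) * y⁻¹ := by group
    rw [e, hqz, hyz] at this
    exact absurd this h.zs_ne_z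
  · have := (aux _ h1).1
    have e : q * y * q * z * (q * y * q)⁻¹ = q * (y * (q * z * q⁻¹) * y⁻¹) * q⁻¹ := by group
    rw [e, hqz, hyz, hqzs] at this
    exact absurd this h.sz

/-- `N(V) = X C(V)` -/
theorem Pair.NV_eq : normalizer (VV z s : Set G) = (Q ⊔ Q1) ⊔ centralizer (VV z s : Set G) := by
  apply le_antisymm
  · intro n hn
    obtain ⟨q, hq, hqs⟩ := h.exists_q
    obtain ⟨y, hy, hyz⟩ := h.exists_y
    have hqX : q ∈ Q ⊔ Q1 := (le_sup_left : Q ≤ Q ⊔ Q1) hq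
    have hyX : y ∈ Q ⊔ Q1 := (le_sup_right : Q1 ≤ Q ⊔ Q1) hy
    have hqz : q * z * q⁻¹ = z := by rw [h.P.zc q hq, mul_inv_cancel_right]
    have hys : y * s * y⁻¹ = s := by rw [h.P1.zc y hy, mul_inv_cancel_right]
    have hyzs : y * (z * s) * y⁻¹ = z := by
      calc y * (z * s) * y⁻¹ = (y * z * y⁻¹) * (y * s * y⁻¹) := by group
        _ = z := by rw [hyz, hys, mul_assoc, h.P1.zz, mul_one]
    have hqzs : q * (z * s) * q⁻¹ = s := by
      calc q * (z * s) * q⁻¹ = (q * z * q⁻¹) * (q * s * q⁻¹) := by group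
        _ = s := by rw [hqz, hqs, ← mul_assoc, h.P.zz, one_mul]
    -- case `n` centralizes `z`
    have step1 : ∀ n ∈ normalizer (VV z s : Set G), n * z * n⁻¹ = z →
        n ∈ (Q ⊔ Q1) ⊔ centralizer (VV z s : Set G) := by
      intro n hn hnz
      have h1 : n * s * n⁻¹ ∈ VV z s := (mem_normalizer_iff.mp hn s).mp s_mem_V
      rcases h.mem_V.mp h1 with h2 | h2 | h2 | h2
      · exfalso
        apply h.P1.z1
        rw [mul_inv_eq_one] at h2
        exact mul_eq_left.mp h2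
      · exfalso
        rw [← hnz] at h2
        exact h.sz (mul_left_cancel (mul_right_cancel h2))
      · apply mem_sup_right
        rw [mem_CV]
        exact ⟨mul_inv_eq_iff_eq_mul.mp hnz, mul_inv_eq_iff_eq_mul.mp h2⟩
      · have h3 : q * n ∈ centralizer (VV z s : Set G) := by
          rw [mem_CV]
          constructor
          · rw [← mul_inv_eq_iff_eq_mul]
            calc q * n * z * (q * n)⁻¹ = q * (n * z * n⁻¹) * q⁻¹ := by group
              _ = z := by rw [hnz, hqz]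
          · rw [← mul_inv_eq_iff_eq_mul]
            calc q * n * s * (q * n)⁻¹ = q * (n * s * n⁻¹) * q⁻¹ := by group
              _ = s := by rw [h2, hqzs]
        have h4 : n = q⁻¹ * (q * n) := by group
        rw [h4]
        exact mul_mem (mem_sup_left (inv_mem hqX)) (mem_sup_right h3)
    have hXN : ∀ x ∈ Q ⊔ Q1, ∀ n ∈ normalizer (VV z s : Set G), x * n * z * (x * n)⁻¹ = z →
        n ∈ (Q ⊔ Q1) ⊔ centralizer (VV z s : Set G) := by
      intro x hx n hn h1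
      have h2 := step1 (x * n) (mul_mem (h.X_le_NV hx) hn) h1
      have h4 : n = x⁻¹ * (x * n) := by group
      rw [h4]
      exact mul_mem (mem_sup_left (inv_mem hx)) h2
    have h1 : n * z * n⁻¹ ∈ VV z s := (mem_normalizer_iff.mp hn z).mp z_mem_V
    rcases h.mem_V.mp h1 with h2 | h2 | h2 | h2
    · exfalso
      apply h.P.z1
      rw [mul_inv_eq_one] at h2
      exact mul_eq_left.mp h2
    · exact step1 n hn h2
    · -- `y q` maps `s` to `z`
      apply hXN (y * q) (mul_mem hyX hqX) n hn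
      calc y * q * n * z * (y * q * n)⁻¹ = y * (q * (n * z * n⁻¹) * q⁻¹) * y⁻¹ := by group
        _ = z := by rw [h2, hqs, hyzs]
    · apply hXN y hyX n hn
      calc y * n * z * (y * n)⁻¹ = y * (n * z * n⁻¹) * y⁻¹ := by group
        _ = z := by rw [h2, hyzs]
  · exact sup_le h.X_le_NV (centralizer_le_normalizer _)

/-- `N(V)` normalizes `X` -/
theorem Pair.NV_le_NX : normalizer (VV z s : Set G) ≤ normalizer ((Q ⊔ Q1 : Subgroup G) : Set G) := by
  rw [h.NV_eq]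
  exact sup_le Subgroup.le_normalizer h.CV_le_NX

theorem Pair.comm_mem_R {x c : G} (hx : x ∈ Q ⊔ Q1) (hc : c ∈ centralizer (VV z s : Set G)) :
    x * c * x⁻¹ * c⁻¹ ∈ RR Q Q1 z s := by
  rw [h.R_eq]
  constructor
  · have : x * c * x⁻¹ * c⁻¹ = x * (c * x⁻¹ * c⁻¹) := by group
    rw [this]
    exact Subgroup.mul_mem _ hx (conj_mem_of_le_normalizer h.CV_le_NX hc (inv_mem hx))
  · exact Subgroup.mul_mem _ (conj_mem_of_le_normalizer (h.X_le_NV.trans (N_le_NC _)) hx hc)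
      (Subgroup.inv_mem _ hc)

end H28.LPair
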