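import Mathlib
import Cfsg.Agent.Lib.H28.LPair2
import Cfsg.Agent.Lib.H65.PBasic

/-!
Pairs of large extraspecial subgroups, continued: `O₂(X) = R` and `X / R ≅ S₃`.
-/

set_option autoImplicit false

open Cfsg Subgroup H28.Cj H91.LargePair
open scoped commutatorElement

namespace H28.LPair

variable {G : Type*} [Group G]

section

variable {Q Q1 : Subgroup G} {z s : G} (h : Pair Q Q1 z s)

include h

theorem Pair.V_ne_bot : VV z s ≠ ⊥ := fun h1 => h.P.z1 (by
  have : z ∈ VV z s := z_mem_V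
  rwa [h1, mem_bot] at this)

theorem Pair.isPGroup_V : IsPGroup 2 (VV z s) := by
  rintro ⟨x, hx⟩
  refine ⟨1, ?_⟩
  apply Subtype.ext
  change x ^ 2 ^ 1 = 1
  rw [pow_one]
  exact h.E_elab.2 x (h.V_le_E hx)

theorem Pair.isPGroup_R (hQ : IsPGroup 2 Q) (hQ1 : IsPGroup 2 Q1) : IsPGroup 2 (RR Q Q1 z s) := by
  have h1 : (Q1 ⊓ centralizer ({z} : Set G)) ≤
      normalizer ((Q ⊓ centralizer ({s} : Set G) : Subgroup G) : Set G) := by
    apply le_normalizer_of_conj_mem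
    intro b hb a ha
    rw [h.A_eq] at ha ⊢
    rw [h.B_eq] at hb
    exact ⟨conj_mem_of_le_normalizer h.CV_le_NQ hb.2 ha.1,
      Subgroup.mul_mem _ (Subgroup.mul_mem _ hb.2 ha.2) (Subgroup.inv_mem _ hb.2)⟩
  exact (hQ1.to_le inf_le_left).to_sup_of_normal_right' (hQ.to_le inf_le_left) h1

/-- `O₂(X) = R` -/
theorem Pair.O2_eq [Finite G] (hQ : IsPGroup 2 Q) (hQ1 : IsPGroup 2 Q1) :
    RR Q Q1 z s = (Cfsg.pCore 2 ↥(Q ⊔ Q1)).map (Q ⊔ Q1).subtype := by
  have h2p : Fact (Nat.Prime 2) := ⟨Nat.prime_two⟩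
  set X := Q ⊔ Q1 with hX
  apply le_antisymm
  · have hn : ((RR Q Q1 z s).subgroupOf X).Normal :=
      (normal_subgroupOf_iff_le_normalizer R_le_X).mpr h.X_le_NR
    have h1 : (RR Q Q1 z s).subgroupOf X ≤ pCore 2 X := by
      apply H1.Cores.le_pCore hn
      exact (h.isPGroup_R hQ hQ1).comap_of_injective X.subtype X.subtype_injective
    have h2 := Subgroup.map_mono (f := X.subtype) h1
    rwa [subgroupOf_map_subtype, inf_eq_left.mpr R_le_X] at h2
  · set O := (Cfsg.pCore 2 ↥X).map X.subtype with hO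
    have hOX : O ≤ X := map_subtype_le _
    have hOp : IsPGroup 2 O := (H1.Cores.isPGroup_pCore 2).map _
    have hOn : X ≤ normalizer (O : Set G) := by
      have hn : (pCore 2 X).Normal := H1.Cores.pCore_normal 2
      apply le_normalizer_of_conj_mem
      rintro x hx _ ⟨y, hy, rfl⟩
      exact ⟨⟨x, hx⟩ * y * ⟨x, hx⟩⁻¹, hn.conj_mem y hy _, rfl⟩
    have h1 := H65.PBasic.inf_centralizer_ne_bot O (VV z s) hOp h.isPGroup_V (hOX.trans h.X_le_NV)
      h.V_ne_bot
    obtain ⟨v, hv, hv1⟩ := (bot_or_exists_ne_one _).resolve_left h1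
    have hW : X ≤ normalizer ((VV z s ⊓ centralizer (O : Set G) : Subgroup G) : Set G) := by
      apply le_normalizer_of_conj_mem
      intro x hx w hw
      refine ⟨conj_mem_of_le_normalizer h.X_le_NV hx hw.1, ?_⟩
      exact conj_mem_of_le_normalizer (hOn.trans (N_le_NC _)) hx hw.2
    set W := VV z s ⊓ centralizer (O : Set G) with hWd
    obtain ⟨q, hq, hqs⟩ := h.exists_q
    obtain ⟨y, hy, hyz⟩ := h.exists_y
    have hqX : q ∈ X := (le_sup_left : Q ≤ Q ⊔ Q1) hq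
    have hyX : y ∈ X := (le_sup_right : Q1 ≤ Q ⊔ Q1) hy
    have hqz : q * z * q⁻¹ = z := by rw [h.P.zc q hq, mul_inv_cancel_right]
    have hys : y * s * y⁻¹ = s := by rw [h.P1.zc y hy, mul_inv_cancel_right]
    have hyzs : y * (z * s) * y⁻¹ = z := by
      calc y * (z * s) * y⁻¹ = (y * z * y⁻¹) * (y * s * y⁻¹) := by group
        _ = z := by rw [hyz, hys, mul_assoc, h.P1.zz, mul_one]
    have hzs : z ∈ W → s ∈ W := by
      intro hz
      have h2 := conj_mem_of_le_normalizer hW hyX hz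
      rw [hyz] at h2
      have h3 := mul_mem (inv_mem hz) h2
      rwa [inv_mul_cancel_left] at h3
    have hsz : s ∈ W → z ∈ W := by
      intro hs
      have h2 := conj_mem_of_le_normalizer hW hqX hs
      rw [hqs] at h2
      have h3 := mul_mem h2 (inv_mem hs)
      rwa [mul_inv_cancel_right] at h3
    have hzW : z ∈ W := by
      rcases h.mem_V.mp hv.1 with h2 | h2 | h2 | h2
      · exact absurd h2 hv1
      · rw [← h2]; exact hv
      · apply hsz; rw [← h2]; exact hv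
      · have h3 := conj_mem_of_le_normalizer hW hyX hv
        rwa [h2, hyzs] at h3
    have hsW := hzs hzW
    rw [h.R_eq]
    intro x hx
    refine ⟨hOX hx, ?_⟩
    have h4 : x * z = z * x := mem_centralizer_iff.mp hzW.2 x hx
    have h5 : x * s = s * x := mem_centralizer_iff.mp hsW.2 x hx
    exact mem_CV.mpr ⟨h4, h5⟩

/-! ### the action on `V` -/

omit h in
/-- the nontrivial elements of `V` -/
def Om (z s : G) : Type _ := {v : G // v = z ∨ v = s ∨ v = z * s}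

theorem Pair.card_Om : Nat.card (Om z s) = 3 := by
  have h1 : Nat.card (Om z s) = Set.ncard {v : G | v = z ∨ v = s ∨ v = z * s} := rfl
  rw [h1]
  have h2 : {v : G | v = z ∨ v = s ∨ v = z * s} = {z, s, z * s} := by
    ext x; simp
  rw [h2, Set.ncard_insert_of_notMem, Set.ncard_pair]
  · exact h.zs_ne_s.symm
  · rintro (h3 | h3)
    · exact h.sz h3.symm
    · exact h.zs_ne_z h3.symm

theorem Pair.mem_Om {v : G} : (v = z ∨ v = s ∨ v = z * s) ↔ v ∈ VV z s ∧ v ≠ 1 := by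
  rw [h.mem_V]
  constructor
  · rintro (rfl | rfl | rfl)
    · exact ⟨Or.inr (Or.inl rfl), h.P.z1⟩
    · exact ⟨Or.inr (Or.inr (Or.inl rfl)), h.P1.z1⟩
    · exact ⟨Or.inr (Or.inr (Or.inr rfl)), h.zs_ne_one⟩
  · rintro ⟨h1 | h1, h2⟩
    · exact absurd h1 h2
    · exact h1

/-- the action of `X` on the involutions of `V` -/
noncomputable def Pair.act : ↥(Q ⊔ Q1) →* Equiv.Perm (Om z s) where
  toFun x :=
    { toFun := fun v => ⟨x * v.1 * (x : G)⁻¹, by
        have h1 := h.mem_Om.mp v.2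
        rw [h.mem_Om]
        refine ⟨conj_mem_of_le_normalizer h.X_le_NV x.2 h1.1, ?_⟩
        intro h2
        apply h1.2
        rw [mul_inv_eq_one] at h2
        exact mul_eq_left.mp h2⟩
      invFun := fun v => ⟨(x : G)⁻¹ * v.1 * x, by
        have h1 := h.mem_Om.mp v.2
        rw [h.mem_Om]
        have h3 := conj_mem_of_le_normalizer h.X_le_NV (inv_mem x.2) h1.1
        rw [inv_inv] at h3
        refine ⟨h3, ?_⟩
        intro h2
        apply h1.2
        have h4 : v.1 = x * ((x : G)⁻¹ * v.1 * x) * (x : G)⁻¹ := by group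
        rw [h4, h2]; group⟩
      left_inv := fun v => Subtype.ext (by
        change (x : G)⁻¹ * (x * v.1 * (x : G)⁻¹) * x = v.1
        group)
      right_inv := fun v => Subtype.ext (by
        change (x : G) * ((x : G)⁻¹ * v.1 * x) * (x : G)⁻¹ = v.1
        group) }
  map_one' := by
    ext v
    apply Subtype.ext
    change (1 : G) * v.1 * (1 : G)⁻¹ = v.1
    group
  map_mul' x y := by
    ext v
    apply Subtype.ext
    change ((x * y : ↥(Q ⊔ Q1)) : G) * v.1 * ((x * y : ↥(Q ⊔ Q1)) : G)⁻¹ =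
      x * (y * v.1 * (y : G)⁻¹) * (x : G)⁻¹
    push_cast
    group

theorem Pair.act_apply (x : ↥(Q ⊔ Q1)) (v : Om z s) : (h.act x v).1 = x * v.1 * (x : G)⁻¹ := rfl

theorem Pair.ker_act : h.act.ker = (RR Q Q1 z s).subgroupOf (Q ⊔ Q1) := by
  ext x
  rw [MonoidHom.mem_ker, mem_subgroupOf, h.R_eq]
  constructor
  · intro h1
    refine ⟨x.2, mem_CV.mpr ⟨?_, ?_⟩⟩
    · have : (x : G) * z * (x : G)⁻¹ = z :=
        congrArg Subtype.val (DFunLike.congr_fun h1 (⟨z, Or.inl rfl⟩ : Om z s))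
      exact mul_inv_eq_iff_eq_mul.mp this
    · have : (x : G) * s * (x : G)⁻¹ = s :=
        congrArg Subtype.val (DFunLike.congr_fun h1 (⟨s, Or.inr (Or.inl rfl)⟩ : Om z s))
      exact mul_inv_eq_iff_eq_mul.mp this
  · rintro ⟨-, h1⟩
    ext v
    apply Subtype.ext
    rw [h.act_apply]
    have h2 := mem_centralizer_iff.mp h1 v.1 (h.mem_Om.mp v.2).1
    change (x : G) * v.1 * (x : G)⁻¹ = v.1
    rw [← h2, mul_inv_cancel_right]

theorem Pair.act_surjective : Function.Surjective h.act := by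
  classical
  rw [← MonoidHom.range_eq_top, eq_top_iff]
  have : Finite (Om z s) := Nat.finite_of_card_ne_zero (by rw [h.card_Om]; norm_num)
  rw [← Equiv.Perm.closure_isSwap, closure_le]
  obtain ⟨q, hq, hqs⟩ := h.exists_q
  obtain ⟨y, hy, hyz⟩ := h.exists_y
  have hqX : q ∈ Q ⊔ Q1 := (le_sup_left : Q ≤ Q ⊔ Q1) hq
  have hyX : y ∈ Q ⊔ Q1 := (le_sup_right : Q1 ≤ Q ⊔ Q1) hy
  have hqz : q * z * q⁻¹ = z := by rw [h.P.zc q hq, mul_inv_cancel_right]
  have hys : y * s * y⁻¹ = s := by rw [h.P1.zc y hy, mul_inv_cancel_right]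
  have hyzs : y * (z * s) * y⁻¹ = z := by
    calc y * (z * s) * y⁻¹ = (y * z * y⁻¹) * (y * s * y⁻¹) := by group
      _ = z := by rw [hyz, hys, mul_assoc, h.P1.zz, mul_one]
  have hqzs : q * (z * s) * q⁻¹ = s := by
    calc q * (z * s) * q⁻¹ = (q * z * q⁻¹) * (q * s * q⁻¹) := by group
      _ = s := by rw [hqz, hqs, ← mul_assoc, h.P.zz, one_mul]
  let oz : Om z s := ⟨z, Or.inl rfl⟩
  let os : Om z s := ⟨s, Or.inr (Or.inl rfl)⟩
  let ot : Om z s := ⟨z * s, Or.inr (Or.inr rfl)⟩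
  have n1 : oz ≠ os := fun h1 => h.sz (congrArg Subtype.val h1).symm
  have n2 : oz ≠ ot := fun h1 => h.zs_ne_z (congrArg Subtype.val h1).symm
  have n3 : os ≠ ot := fun h1 => h.zs_ne_s (congrArg Subtype.val h1).symm
  have hall : ∀ v : Om z s, v = oz ∨ v = os ∨ v = ot := by
    rintro ⟨v, h1 | h1 | h1⟩
    · exact Or.inl (Subtype.ext h1)
    · exact Or.inr (Or.inl (Subtype.ext h1))
    · exact Or.inr (Or.inr (Subtype.ext h1))
  have aq : h.act ⟨q, hqX⟩ = Equiv.swap os ot := by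
    refine Equiv.ext fun v => ?_
    rcases hall v with rfl | rfl | rfl
    · rw [Equiv.swap_apply_of_ne_of_ne n1 n2]
      exact Subtype.ext hqz
    · rw [Equiv.swap_apply_left]
      exact Subtype.ext hqs
    · rw [Equiv.swap_apply_right]
      exact Subtype.ext hqzs
  have ay : h.act ⟨y, hyX⟩ = Equiv.swap oz ot := by
    refine Equiv.ext fun v => ?_
    rcases hall v with rfl | rfl | rfl
    · rw [Equiv.swap_apply_left]
      exact Subtype.ext hyz
    · rw [Equiv.swap_apply_of_ne_of_ne n1.symm n3]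
      exact Subtype.ext hys
    · rw [Equiv.swap_apply_right]
      exact Subtype.ext hyzs
  have m1 : Equiv.swap os ot ∈ h.act.range := ⟨_, aq⟩
  have m2 : Equiv.swap oz ot ∈ h.act.range := ⟨_, ay⟩
  have m3 : Equiv.swap oz os ∈ h.act.range := by
    rw [← Equiv.swap_mul_swap_mul_swap n3 n1.symm, Equiv.swap_comm ot oz]
    exact mul_mem (mul_mem m2 m1) m2
  rintro σ ⟨a, b, hab, rfl⟩
  rcases hall a with rfl | rfl | rfl <;> rcases hall b with rfl | rfl | rfl
  · exact absurd rfl hab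
  · exact m3
  · exact m2
  · rw [Equiv.swap_comm]; exact m3
  · exact absurd rfl hab
  · exact m1
  · rw [Equiv.swap_comm]; exact m2
  · rw [Equiv.swap_comm]; exact m1
  · exact absurd rfl hab

theorem Pair.quotient_iso : ∃ _ : ((RR Q Q1 z s).subgroupOf (Q ⊔ Q1)).Normal,
    Nonempty (↥(Q ⊔ Q1) ⧸ (RR Q Q1 z s).subgroupOf (Q ⊔ Q1) ≃* Equiv.Perm (Fin 3)) := by
  have hn : ((RR Q Q1 z s).subgroupOf (Q ⊔ Q1)).Normal :=
    (normal_subgroupOf_iff_le_normalizer R_le_X).mpr h.X_le_NR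
  refine ⟨hn, ⟨?_⟩⟩
  have : Finite (Om z s) := Nat.finite_of_card_ne_zero (by rw [h.card_Om]; norm_num)
  have e1 : ↥(Q ⊔ Q1) ⧸ (RR Q Q1 z s).subgroupOf (Q ⊔ Q1) ≃* ↥(Q ⊔ Q1) ⧸ h.act.ker :=
    QuotientGroup.quotientMulEquivOfEq h.ker_act.symm
  exact (e1.trans (QuotientGroup.quotientKerEquivOfSurjective _ h.act_surjective)).trans
    (Finite.equivFinOfCardEq h.card_Om).permCongrHom

end

/-! ### the statements -/

theorem main5431 [Finite G] (Q : Subgroup G) (hQ : Cfsg.IsLargeExtraspecial Q) (z : G)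
    (hz : ((Subgroup.center ↥Q).map Q.subtype) = Subgroup.zpowers z) (hz2 : orderOf z = 2) (w : ℕ)
    (hw : 2 ≤ w) (hcard : Nat.card ↥Q = 2 ^ (2 * w + 1)) (g : G)
    (hgH : g ∉ Subgroup.centralizer ({z} : Set G)) (hgQ : g * z * g⁻¹ ∈ Q) (V X R E : Subgroup G)
    (hV : V = Subgroup.closure ({z, g * z * g⁻¹} : Set G))
    (hX : X = Q ⊔ (Q).map (MulAut.conj g).toMonoidHom)
    (hR : R = ((Q).map (MulAut.conj g).toMonoidHom ⊓ Subgroup.centralizer ({z} : Set G)) ⊔
      (Q ⊓ Subgroup.centralizer ({g * z * g⁻¹} : Set G)))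
    (hE : E = Q ⊓ (Q).map (MulAut.conj g).toMonoidHom) :
    (Subgroup.center ↥R).map R.subtype = V ∧
    E ≤ (Subgroup.upperCentralSeries ↥R 2).map R.subtype ∧
    Subgroup.upperCentralSeries ↥R 3 = ⊤ ∧ Cfsg.IsElementaryAbelian 2 E ∧
    (∀ x ∈ R, ∀ y ∈ R, x * y * x⁻¹ * y⁻¹ ∈ E ∧ x ^ 2 ∈ E) ∧
    ((Q).map (MulAut.conj g).toMonoidHom ⊓ Subgroup.centralizer ({z} : Set G)) ⊓
      (Q ⊓ Subgroup.centralizer ({g * z * g⁻¹} : Set G)) = E ∧ ⁅X, E⁆ ≤ V := by
  have h := exists_pair hQ hz hz2 hw hcard hgH hgQ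
  have hVR : V ≤ R := by rw [hV, hR]; exact h.V_le_R
  have hRC : R ≤ centralizer (V : Set G) := by rw [hV, hR]; exact h.R_le_CV
  have hER : E ≤ R := by
    rw [hE, hR]; exact h.E_le_A.trans le_sup_right
  have hRX : R ≤ X := by rw [hR, hX]; exact R_le_X
  have c1 : (Subgroup.center ↥R).map R.subtype = V := by
    apply le_antisymm
    · rintro _ ⟨x, hx, rfl⟩
      rw [hV]
      apply h.center_R
      · have h5 : ∀ u : G, u ∈ R → u ∈ RR Q ((Q).map (MulAut.conj g).toMonoidHom) z (g * z * g⁻¹) := by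
          intro u hu
          rw [hR] at hu
          exact hu
        exact h5 _ x.2
      · intro y hy
        have hy' : y ∈ R := by rw [hR]; exact hy
        exact congrArg Subtype.val (mem_center_iff.mp hx ⟨y, hy'⟩)
    · intro v hv
      refine ⟨⟨v, hVR hv⟩, ?_, rfl⟩
      rw [SetLike.mem_coe, mem_center_iff]
      intro y
      apply Subtype.ext
      exact (mem_centralizer_iff.mp (hRC y.2) v hv).symm
  have hXE : ∀ x ∈ X, ∀ e ∈ E, x * e * x⁻¹ * e⁻¹ ∈ V := by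
    intro x hx e he
    rw [hX] at hx; rw [hE] at he; rw [hV]
    exact h.comm_XE hx he
  have hE2 : ∀ e : R, (e : G) ∈ E → e ∈ Subgroup.upperCentralSeries ↥R 2 := by
    intro e he
    rw [Subgroup.mem_upperCentralSeries_succ_iff]
    intro y
    rw [Subgroup.upperCentralSeries_one]
    have h1 : (y : G) * e * (y : G)⁻¹ * (e : G)⁻¹ ∈ V := hXE y (hRX y.2) e he
    have h2 : ((⁅e, y⁆ : R) : G) ∈ V := by
      have : ((⁅e, y⁆ : R) : G) = ((y : G) * e * (y : G)⁻¹ * (e : G)⁻¹)⁻¹ := by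
        rw [commutatorElement_def]; push_cast; group
      rw [this]; exact inv_mem h1
    rw [← c1] at h2
    obtain ⟨u, hu, h3⟩ := h2
    have h4 : u = ⁅e, y⁆ := Subtype.ext h3
    rw [← h4]; exact hu
  have hRE : ∀ x ∈ R, ∀ y ∈ R, x * y * x⁻¹ * y⁻¹ ∈ E ∧ x ^ 2 ∈ E := by
    intro x hx y hy
    rw [hR] at hx hy; rw [hE]
    exact ⟨h.R_mod_E hx hy, h.R_sq hx⟩
  refine ⟨c1, ?_, ?_, ?_, hRE, ?_, ?_⟩
  · intro e he
    exact ⟨⟨e, hER he⟩, hE2 ⟨e, hER he⟩ he, rfl⟩
  · rw [eq_top_iff]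
    intro x _
    rw [Subgroup.mem_upperCentralSeries_succ_iff]
    intro y
    apply hE2
    rw [commutatorElement_def]
    push_cast
    exact (hRE x x.2 y y.2).1
  · rw [hE]; exact h.E_elab
  · rw [hE]; exact h.E_eq
  · rw [commutator_le]
    intro x hx e he
    rw [commutatorElement_def]
    exact hXE x hx e he

theorem main5430 [Finite G] (Q : Subgroup G) (hQ : Cfsg.IsLargeExtraspecial Q) (z : G)
    (hz : ((Subgroup.center ↥Q).map Q.subtype) = Subgroup.zpowers z) (hz2 : orderOf z = 2) (w : ℕ)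
    (hw : 2 ≤ w) (hcard : Nat.card ↥Q = 2 ^ (2 * w + 1)) (g : G)
    (hgH : g ∉ Subgroup.centralizer ({z} : Set G)) (hgQ : g * z * g⁻¹ ∈ Q) (V X R : Subgroup G)
    (hV : V = Subgroup.closure ({z, g * z * g⁻¹} : Set G))
    (hX : X = Q ⊔ (Q).map (MulAut.conj g).toMonoidHom)
    (hR : R = ((Q).map (MulAut.conj g).toMonoidHom ⊓ Subgroup.centralizer ({z} : Set G)) ⊔
      (Q ⊓ Subgroup.centralizer ({g * z * g⁻¹} : Set G))) :
    R = X ⊓ Subgroup.centralizer (V : Set G) ∧ R = (Cfsg.pCore 2 ↥X).map X.subtype ∧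
    (∃ _ : (R.subgroupOf X).Normal, Nonempty (↥X ⧸ R.subgroupOf X ≃* Equiv.Perm (Fin 3))) ∧
    Subgroup.normalizer (V : Set G) =
      X ⊔ (Subgroup.centralizer ({z} : Set G) ⊓ Subgroup.centralizer (V : Set G)) ∧
    (∀ y ∈ Subgroup.normalizer (V : Set G), ∀ x ∈ X, y * x * y⁻¹ ∈ X) ∧
    R ≤ Subgroup.centralizer ({z} : Set G) ⊓ Subgroup.centralizer (V : Set G) ∧
    (∀ x ∈ X, ∀ c ∈ Subgroup.centralizer ({z} : Set G) ⊓ Subgroup.centralizer (V : Set G),
      x * c * x⁻¹ * c⁻¹ ∈ R) ∧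
    X ⊓ (Subgroup.centralizer ({z} : Set G) ⊓ Subgroup.centralizer (V : Set G)) = R := by
  have h := exists_pair hQ hz hz2 hw hcard hgH hgQ
  set Q1 := (Q).map (MulAut.conj g).toMonoidHom with hQ1
  set s := g * z * g⁻¹ with hs
  have hVV : V = VV z s := hV
  have hRR : R = RR Q Q1 z s := hR
  have hCz : centralizer ({z} : Set G) ⊓ centralizer (VV z s : Set G) =
      centralizer (VV z s : Set G) := by
    rw [inf_eq_right]
    apply centralizer_le
    rintro x rfl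
    exact z_mem_V
  have hp : IsPGroup 2 Q := hQ.1.1.1
  have hp1 : IsPGroup 2 Q1 := hp.map _
  rw [hVV, hRR, hX, hCz]
  refine ⟨h.R_eq, h.O2_eq hp hp1, h.quotient_iso, h.NV_eq, ?_, h.R_le_CV, ?_, h.R_eq.symm⟩
  · intro y hy x hx
    exact conj_mem_of_le_normalizer h.NV_le_NX hy hx
  · intro x hx c hc
    exact h.comm_mem_R hx hc

end H28.LPair
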