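import Mathlib
import Cfsg.Prelude.Def_MonsterType
import Cfsg.Agent.Lib.H28.LPair2
import Cfsg.Agent.Lib.H28.RelSyl
import Cfsg.Agent.Lib.H65.PBasic
import Cfsg.Agent.Lib.H91.Setting

/-!
Simplicity of a group with an extraspecial involution centralizer.
-/

set_option autoImplicit false

open Cfsg Subgroup H28.Cj H28.RelSyl H91.LargePair

namespace H28.LPair

variable {G : Type*} [Group G]

theorem pair_of_pack [Finite G] {Q : Subgroup G} {z : G} (hP : Pack Q z) (h8 : 8 < Nat.card Q)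
    {g : G} (hgQ : g * z * g⁻¹ ∈ Q) (hsz : g * z * g⁻¹ ≠ z) :
    Pair Q (Q.map (MulAut.conj g).toMonoidHom) z (g * z * g⁻¹) := by
  have hP1 := hP.conj g
  have hcjk : ∀ k, k * z * k⁻¹ = g * z * g⁻¹ → ∀ q ∈ Q, k * q * k⁻¹ ∈
      Q.map (MulAut.conj g).toMonoidHom := by
    intro k hk q hq
    rw [mem_map_conj]
    have h1 : (g⁻¹ * k) * z = z * (g⁻¹ * k) := by
      rw [← mul_inv_eq_iff_eq_mul]
      calc g⁻¹ * k * z * (g⁻¹ * k)⁻¹ = g⁻¹ * (k * z * k⁻¹) * g := by group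
        _ = z := by rw [hk]; group
    have h2 := hP.N _ h1 q hq
    have h3 : g⁻¹ * (k * q * k⁻¹) * g = g⁻¹ * k * q * (g⁻¹ * k)⁻¹ := by group
    rwa [h3]
  refine ⟨hP, hP1, hgQ, key hP hP1 hcjk hgQ hsz h8, hsz, hcjk, ?_⟩
  intro k hk q hq
  rw [mem_map_conj] at hq
  have h1 : (k * g) * z = z * (k * g) := by
    rw [← mul_inv_eq_iff_eq_mul]
    calc k * g * z * (k * g)⁻¹ = k * (g * z * g⁻¹) * k⁻¹ := by group
      _ = z := hk
  have h2 := hP.N _ h1 _ hq
  have h3 : k * g * (g⁻¹ * q * g) * (k * g)⁻¹ = k * q * k⁻¹ := by group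
  rwa [h3] at h2

/-- `Q` normalizes no nontrivial subgroup of odd order -/
theorem Pair.core [Finite G] {Q Q1 : Subgroup G} {z s : G} (h : Pair Q Q1 z s) (hQ : IsPGroup 2 Q)
    (hQ1 : IsPGroup 2 Q1) {K : Subgroup G} (hK : Odd (Nat.card K))
    (hQK : Q ≤ normalizer (K : Set G)) : K = ⊥ := by
  have h2p : Fact (Nat.Prime 2) := ⟨Nat.prime_two⟩
  have h1 := H91.LargePair2.large_of_conj h.P h.P1 h.sQ h.sz h.zQ1 hQ1 hK hQK
  have hcop : (Nat.card Q).Coprime (Nat.card K) := by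
    obtain ⟨n, hn⟩ := hQ.exists_card_eq
    rw [hn]
    exact Nat.Coprime.pow_left n (Nat.coprime_two_left.mpr hK)
  have hdisj : Q ⊓ K = ⊥ := by
    apply Subgroup.card_eq_one.mp
    apply Nat.eq_one_of_dvd_coprimes hcop
    · exact Subgroup.card_dvd_of_le inf_le_left
    · exact Subgroup.card_dvd_of_le inf_le_right
  rw [eq_bot_iff]
  intro k hk
  rw [mem_bot]
  have h2 : k = 1 ∨ k = z := by
    apply h.P.C
    intro q hq
    have h3 : q * k * q⁻¹ * k⁻¹ ∈ Q ⊓ K := by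
      constructor
      · have : q * k * q⁻¹ * k⁻¹ = q * (k * q⁻¹ * k⁻¹) := by group
        rw [this]
        exact Q.mul_mem hq (h.P.N k (h1 k hk).symm _ (Q.inv_mem hq))
      · exact K.mul_mem (conj_mem_of_le_normalizer hQK hq hk) (K.inv_mem hk)
    rw [hdisj, mem_bot, mul_inv_eq_one, mul_inv_eq_iff_eq_mul] at h3
    exact h3
  rcases h2 with h2 | h2
  · exact h2
  · exfalso
    have h3 : z ∈ Q ⊓ K := ⟨h.P.zQ, h2 ▸ hk⟩
    rw [hdisj, mem_bot] at h3
    exact h.P.z1 h3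

/-- every nontrivial normal subgroup contains `z` -/
theorem Pair.z_mem_normal [Finite G] {Q Q1 : Subgroup G} {z s : G} (h : Pair Q Q1 z s)
    (hQ : IsPGroup 2 Q) (hQ1 : IsPGroup 2 Q1) {N : Subgroup G} (hN : N.Normal) (hN1 : N ≠ ⊥) :
    z ∈ N := by
  have h2p : Fact (Nat.Prime 2) := ⟨Nat.prime_two⟩
  have hev : 2 ∣ Nat.card N := by
    by_contra hd
    apply hN1
    apply h.core hQ hQ1
    · rwa [← even_iff_two_dvd, Nat.not_even_iff_odd] at hd
    · rw [normalizer_eq_top_iff.mpr hN]; exact le_top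
  obtain ⟨S, hS, hQS⟩ := exists_isSyl_ge (p := 2) hQ le_top
  have hSN : IsSyl 2 (S ⊓ N) N :=
    hS.inf_normal (by rw [normalizer_eq_top_iff.mpr hN]) le_top
  have h1 := hSN.ne_bot hev
  have h2 : S ≤ normalizer ((S ⊓ N : Subgroup G) : Set G) := by
    apply le_normalizer_of_conj_mem
    intro x hx y hy
    exact ⟨S.mul_mem (S.mul_mem hx hy.1) (S.inv_mem hx), hN.conj_mem y hy.2 x⟩
  have h3 := H65.PBasic.inf_centralizer_ne_bot S (S ⊓ N) hS.isPGroup hSN.isPGroup h2 h1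
  obtain ⟨x, hx, hx1⟩ := (bot_or_exists_ne_one _).resolve_left h3
  have h4 : x = 1 ∨ x = z := h.P.C x fun q hq => mem_centralizer_iff.mp hx.2 q (hQS hq)
  rcases h4 with h4 | h4
  · exact absurd h4 hx1
  · rw [← h4]; exact hx.1.2

/-- Frattini: if a normal subgroup contains `C(z)` it is the whole group -/
theorem Pair.eq_top_of_centralizer_le [Finite G] {Q Q1 : Subgroup G} {z s : G} (h : Pair Q Q1 z s)
    (hQ : IsPGroup 2 Q) {N : Subgroup G} (hN : N.Normal)
    (hC : centralizer ({z} : Set G) ≤ N) : N = ⊤ := by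
  have h2p : Fact (Nat.Prime 2) := ⟨Nat.prime_two⟩
  have hQC : Q ≤ centralizer ({z} : Set G) := fun q hq =>
    mem_centralizer_singleton_iff.mpr (h.P.zc q hq)
  obtain ⟨S, hS, hQS⟩ := exists_isSyl_ge (p := 2) hQ (hQC.trans hC)
  have hS1 : S ≠ ⊥ := by
    intro h1
    apply h.P.z1
    have := hQS h.P.zQ
    rwa [h1, mem_bot] at this
  have h3 := H65.PBasic.inf_centralizer_ne_bot S S hS.isPGroup hS.isPGroup Subgroup.le_normalizer hS1
  obtain ⟨x, hx, hx1⟩ := (bot_or_exists_ne_one _).resolve_left h3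
  have hcen : ∀ x ∈ S ⊓ centralizer (S : Set G), x = 1 ∨ x = z := fun x hx =>
    h.P.C x fun q hq => mem_centralizer_iff.mp hx.2 q (hQS hq)
  have hz : z ∈ S ⊓ centralizer (S : Set G) := by
    rcases hcen x hx with h4 | h4
    · exact absurd h4 hx1
    · rw [← h4]; exact hx
  rw [eq_top_iff]
  intro g _
  obtain ⟨n, hn, m, hm, rfl⟩ := hS.frattini (H := ⊤) (by rw [normalizer_eq_top_iff.mpr hN])
    (mem_top g)
  apply N.mul_mem hn
  apply hC
  have h5 : m * z * m⁻¹ ∈ S ⊓ centralizer (S : Set G) := by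
    refine ⟨(mem_normalizer_iff.mp hm z).mp hz.1, ?_⟩
    exact (mem_normalizer_iff.mp ((N_le_NC S) hm) z).mp hz.2
  rw [mem_centralizer_singleton_iff]
  rcases hcen _ h5 with h6 | h6
  · exfalso
    apply h.P.z1
    rw [mul_inv_eq_one] at h6
    exact mul_eq_left.mp h6
  · exact mul_inv_eq_iff_eq_mul.mp h6

theorem main5436 [Finite G] (z : G) (hz : orderOf z = 2)
    (Q : Subgroup (Subgroup.centralizer ({z} : Set G))) [hQn : Q.Normal]
    (hF : Cfsg.generalizedFittingSubgroup ↥(Subgroup.centralizer ({z} : Set G)) = Q)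
    (hQ : Cfsg.IsExtraspecial 2 ↥Q) (w : ℕ) (hw : 2 ≤ w) (hcard : Nat.card ↥Q = 2 ^ (2 * w + 1))
    (hnwc : ∃ g : G, (∃ hq : g * z * g⁻¹ ∈ Subgroup.centralizer ({z} : Set G),
      (⟨g * z * g⁻¹, hq⟩ : Subgroup.centralizer ({z} : Set G)) ∈ Q) ∧ g * z * g⁻¹ ≠ z)
    (hsimp : IsSimpleGroup (↥(Subgroup.centralizer ({z} : Set G)) ⧸ Q))
    (hirr : ∀ W : Subgroup (Subgroup.centralizer ({z} : Set G)), W.Normal → W ≤ Q →
      (W = Q ∨ ∀ x ∈ W, (x : G) ∈ Subgroup.zpowers z))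
    (hwcl : Subgroup.closure {x : Subgroup.centralizer ({z} : Set G) | IsConj z (x : G)} ≠ Q) :
    IsSimpleGroup G := by
  obtain ⟨hP, -⟩ := H91.Setting.pack_of_setting (w := w) (z := z) (Q := Q)
    ⟨hz, hF, hQ, hcard, hnwc⟩
  have h8 : 8 < Nat.card (Q.map (Subgroup.centralizer ({z} : Set G)).subtype) := by
    rw [H91.Setting.card_map, hcard]
    calc 8 < 2 ^ (2 * 2 + 1) := by norm_num
      _ ≤ 2 ^ (2 * w + 1) := Nat.pow_le_pow_right (by norm_num) (by omega)
  obtain ⟨g, ⟨hgC, hgQ⟩, hgz⟩ := hnwc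
  set Q0 := Q.map (centralizer ({z} : Set G)).subtype with hQ0
  have hgQ0 : g * z * g⁻¹ ∈ Q0 := ⟨⟨g * z * g⁻¹, hgC⟩, hgQ, rfl⟩
  have h := pair_of_pack hP h8 hgQ0 hgz
  have hp : IsPGroup 2 Q0 := hQ.1.1.map _
  have hp1 : IsPGroup 2 (Q0.map (MulAut.conj g).toMonoidHom) := hp.map _
  have hnt : Nontrivial G := ⟨⟨z, 1, hP.z1⟩⟩
  refine { exists_pair_ne := hnt.exists_pair_ne, eq_bot_or_eq_top_of_normal := ?_ }
  intro N hN
  by_cases hN1 : N = ⊥
  · exact Or.inl hN1
  right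
  have hzN := h.z_mem_normal hp hp1 hN hN1
  -- `z ^ g` is not in `⟨z⟩`
  have hgzz : g * z * g⁻¹ ∉ zpowers z := by
    intro h1
    obtain ⟨k, hk⟩ := mem_zpowers_iff.mp h1
    have hk2 : z ^ k = 1 ∨ z ^ k = z := by
      have h2 : z ^ (2 : ℤ) = 1 := by
        rw [show (2 : ℤ) = ((2 : ℕ) : ℤ) from rfl, zpow_natCast, pow_two]; exact hP.zz
      rcases Int.even_or_odd' k with ⟨m, hm | hm⟩
      · left; rw [hm, zpow_mul, h2, one_zpow]
      · right; rw [hm, zpow_add, zpow_mul, h2, one_zpow, one_mul, zpow_one]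
    rcases hk2 with h2 | h2
    · rw [h2] at hk
      apply hP.z1
      have h3 := hk.symm
      rw [mul_inv_eq_one] at h3
      exact mul_eq_left.mp h3
    · rw [h2] at hk
      exact hgz hk.symm
  have hirr' : ∀ W : Subgroup (centralizer ({z} : Set G)), W.Normal → W ≤ Q → (⟨g * z * g⁻¹, hgC⟩ : centralizer ({z} : Set G)) ∈ W → W = Q := by
    intro W hW hWQ hgW
    rcases hirr W hW hWQ with h1 | h1
    · exact h1
    · exact absurd (h1 _ hgW) hgzz
  have hgN : g * z * g⁻¹ ∈ N := hN.conj_mem z hzN g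
  have hNC : (N.subgroupOf (centralizer ({z} : Set G))).Normal := hN.subgroupOf (centralizer ({z} : Set G))
  -- `Q ≤ N`
  have hQN : Q ≤ N.subgroupOf (centralizer ({z} : Set G)) := by
    have h1 := hirr' (N.subgroupOf (centralizer ({z} : Set G)) ⊓ Q) inferInstance inf_le_right ⟨hgN, hgQ⟩
    rw [← h1]; exact inf_le_left
  have hmap : ((N.subgroupOf (centralizer ({z} : Set G))).map (QuotientGroup.mk' Q)).Normal :=
    hNC.map _ (QuotientGroup.mk'_surjective Q)
  rcases hmap.eq_bot_or_eq_top with h1 | h1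
  · exfalso
    have h2 : N.subgroupOf (centralizer ({z} : Set G)) ≤ Q := by
      rw [Subgroup.map_eq_bot_iff, QuotientGroup.ker_mk'] at h1
      exact h1
    apply hwcl
    apply hirr'
    · apply Subgroup.Normal.mk
      intro x hx c
      have h3 : ∀ y ∈ {x : centralizer ({z} : Set G) | IsConj z (x : G)}, c * y * c⁻¹ ∈
          Subgroup.closure {x : centralizer ({z} : Set G) | IsConj z (x : G)} := by
        intro y hy
        apply Subgroup.subset_closure
        have h4 : IsConj (y : G) ((c * y * c⁻¹ : centralizer ({z} : Set G)) : G) := by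
          rw [isConj_iff]
          exact ⟨c, rfl⟩
        exact IsConj.trans hy h4
      have h4 : Subgroup.closure {x : centralizer ({z} : Set G) | IsConj z (x : G)} ≤
          (Subgroup.closure {x : centralizer ({z} : Set G) | IsConj z (x : G)}).comap (MulAut.conj c).toMonoidHom := by
        rw [closure_le]
        exact h3
      exact h4 hx
    · rw [closure_le]
      intro x hx
      apply h2
      rw [mem_subgroupOf]
      obtain ⟨c, hc⟩ := isConj_iff.mp hx
      rw [← hc]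
      exact hN.conj_mem z hzN c
    · apply Subgroup.subset_closure
      exact isConj_iff.mpr ⟨g, rfl⟩
  · apply h.eq_top_of_centralizer_le hp hN
    intro c hc
    have h2 : (QuotientGroup.mk' Q) ⟨c, hc⟩ ∈ (N.subgroupOf (centralizer ({z} : Set G))).map (QuotientGroup.mk' Q) := by
      rw [h1]; exact mem_top _
    obtain ⟨n, hn, h3⟩ := h2
    rw [QuotientGroup.mk'_eq_mk'] at h3
    obtain ⟨q, hq, h4⟩ := h3
    have h5 : (⟨c, hc⟩ : centralizer ({z} : Set G)) ∈ N.subgroupOf (centralizer ({z} : Set G)) := by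
      rw [← h4]; exact mul_mem hn (hQN hq)
    exact h5

end H28.LPair
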