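import Mathlib
import Cfsg.Prelude.Def_MonsterType
import Cfsg.Agent.Lib.H28.LSimp
import Cfsg.Agent.Lib.H28.LOdd
import Cfsg.Agent.Lib.H56.Heis

/-!
Large extraspecial subgroups of centralizers of non-2-central involutions.
-/

set_option autoImplicit false

open Cfsg Subgroup H28.Cj H91.LargePair
open scoped commutatorElement

namespace H28.LPair

theorem large_of_pack {G : Type*} [Group G] [Finite G] {Q : Subgroup G} {z : G} (hP : Pack Q z)
    (hQ : IsPGroup 2 Q) (h8 : 8 < Nat.card Q) (hne : ∃ a ∈ Q, ∃ b ∈ Q, a * b ≠ b * a)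
    (hg : ∃ g : G, g * z * g⁻¹ ∈ Q ∧ g * z * g⁻¹ ≠ z) : IsLargeExtraspecial Q := by
  obtain ⟨g, hgQ, hgz⟩ := hg
  have h := pair_of_pack hP h8 hgQ hgz
  have hQ1 : IsPGroup 2 (Q.map (MulAut.conj g).toMonoidHom) := hQ.map _
  have hex : IsExtraspecial 2 Q := H28.LOdd.extra_of hP le_rfl (fun x hx => hP.cen x hx) hne
  have hmem : ∀ x, x ∈ (center Q).map Q.subtype ↔ x = 1 ∨ x = z := by
    intro x
    constructor
    · rintro ⟨y, hy, rfl⟩
      exact hP.cen _ y.2 fun q hq => congrArg Subtype.val (mem_center_iff.mp hy ⟨q, hq⟩)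
    · rintro (rfl | rfl)
      · exact one_mem _
      · refine ⟨⟨x, hP.zQ⟩, ?_, rfl⟩
        rw [SetLike.mem_coe, mem_center_iff]
        intro y
        exact Subtype.ext (hP.zc y y.2)
  refine ⟨hex, ?_, ?_, ?_⟩
  · ext x
    rw [hmem, mem_centralizer_iff]
    constructor
    · intro h1
      exact hP.C x h1
    · rintro (rfl | rfl)
      · intro y _; simp
      · exact fun y hy => hP.zc y hy
  · apply le_normalizer_of_conj_mem
    intro c hc q hq
    rw [mem_centralizer_iff] at hc
    exact hP.N c (hc z ((hmem z).mpr (Or.inr rfl))).symm q hq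
  · intro K hK hQK
    exact h.core hQ hQ1 hK hQK

section

variable {G : Type*} [Group G] {Q Q1 : Subgroup G} {z s : G}

/-- if `t ∈ Q ∩ Q₁` is not fused to `z`, elements moving `s` can be found in `C_Q(t)` -/
theorem Pair.exists_q_cent (h : Pair Q Q1 z s) {t : G} (htQ : t ∈ Q) (ht1 : t ≠ 1)
    (hts : ¬ IsConj s t) (htz : ¬ IsConj z t) : ∃ q ∈ Q, q * t = t * q ∧ q * s * q⁻¹ = z * s := by
  have htz' : t ≠ z := fun h1 => htz (h1 ▸ IsConj.refl z)
  have hne : ∃ a ∈ Q, a * t = t * a ∧ a * s ≠ s * a := by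
    by_contra hcon
    push Not at hcon
    rcases h.P.double_cen htQ ht1 htz' h.sQ hcon with h1 | h1 | h1 | h1
    · exact h.P1.z1 h1
    · exact h.sz h1
    · exact hts (h1 ▸ IsConj.refl s)
    · obtain ⟨u, hu, hut⟩ := h.P.exists_shift htQ ht1 htz'
      apply hts
      rw [h1, h.P.zc t htQ, ← hut]
      exact isConj_comm.mp (isConj_iff.mpr ⟨u, rfl⟩)
  obtain ⟨a, ha, hat, has⟩ := hne
  refine ⟨a, ha, hat, ?_⟩
  rcases h.P.comm a ha s h.sQ with h1 | h1
  · exfalso; apply has
    rw [mul_inv_eq_one, mul_inv_eq_iff_eq_mul] at h1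
    exact h1
  · exact mul_inv_eq_iff_eq_mul.mp h1

/-- fusing `z` and `s` inside `C(t)` -/
theorem Pair.exists_fuse (h : Pair Q Q1 z s) {t : G} (htQ : t ∈ Q) (htQ1 : t ∈ Q1) (ht1 : t ≠ 1)
    (hts : ¬ IsConj s t) (htz : ¬ IsConj z t) :
    ∃ k ∈ (Q ⊓ centralizer ({t} : Set G)) ⊔ (Q1 ⊓ centralizer ({t} : Set G)), k * z * k⁻¹ = s := by
  obtain ⟨q, hq, hqt, hqs⟩ := h.exists_q_cent htQ ht1 hts htz
  obtain ⟨y, hy, hyt, hyz⟩ := h.symm.exists_q_cent htQ1 ht1 htz hts
  have hq' : q ∈ (Q ⊓ centralizer ({t} : Set G)) ⊔ (Q1 ⊓ centralizer ({t} : Set G)) :=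
    mem_sup_left ⟨hq, mem_centralizer_singleton_iff.mpr hqt⟩
  have hy' : y ∈ (Q ⊓ centralizer ({t} : Set G)) ⊔ (Q1 ⊓ centralizer ({t} : Set G)) :=
    mem_sup_right ⟨hy, mem_centralizer_singleton_iff.mpr hyt⟩
  have hqz : q * z * q⁻¹ = z := by rw [h.P.zc q hq, mul_inv_cancel_right]
  refine ⟨q * y * q⁻¹, mul_mem (mul_mem hq' hy') (inv_mem hq'), ?_⟩
  have hqz' : q⁻¹ * z * q = z := by
    have := h.P.zc q hq
    rw [mul_assoc, ← this]; group
  have hqzs : q * (s * z) * q⁻¹ = s := by
    calc q * (s * z) * q⁻¹ = (q * s * q⁻¹) * (q * z * q⁻¹) := by group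
      _ = s := by rw [hqz, hqs, h.zs, mul_assoc, h.P.zz, mul_one]
  calc q * y * q⁻¹ * z * (q * y * q⁻¹)⁻¹ = q * (y * (q⁻¹ * z * q) * y⁻¹) * q⁻¹ := by group
    _ = s := by rw [hqz', hyz, hqzs]

end

theorem main5429 {G : Type*} [Group G] [Finite G] (z : G) (hz : orderOf z = 2) (Q : Subgroup G)
    (hF : (Cfsg.generalizedFittingSubgroup ↥(Subgroup.centralizer ({z} : Set G))).map
      (Subgroup.centralizer ({z} : Set G)).subtype = Q)
    (hQ : Cfsg.IsExtraspecial 2 ↥Q) (w : ℕ) (hw : 3 ≤ w) (hcard : Nat.card ↥Q = 2 ^ (2 * w + 1))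
    (g : G) (hgQ : g * z * g⁻¹ ∈ Q) (hgZ : g * z * g⁻¹ ∉ ((Subgroup.center ↥Q).map Q.subtype))
    (t : G) (ht : orderOf t = 2) (htQ : t ∈ Q ⊓ (Q).map (MulAut.conj g).toMonoidHom)
    (htz : ¬ IsConj z t) (P : Subgroup G) (hP : P = Q ⊓ Subgroup.centralizer ({t} : Set G))
    (hCP : ∀ c ∈ Subgroup.centralizer ({z} : Set G),
      (∀ x ∈ P, ∃ y ∈ Subgroup.closure ({t, z} : Set G), c * x * c⁻¹ = x * y) ↔ c ∈ Q)
    [hn : ((Subgroup.zpowers t).subgroupOf (Subgroup.centralizer ({t} : Set G))).Normal] :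
    Cfsg.IsLargeExtraspecial ((P.subgroupOf (Subgroup.centralizer ({t} : Set G))).map
      (QuotientGroup.mk' ((Subgroup.zpowers t).subgroupOf (Subgroup.centralizer ({t} : Set G))))) ∧
    ∃ x ∈ P ⊔ ((Q).map (MulAut.conj g).toMonoidHom ⊓ Subgroup.centralizer ({t} : Set G)),
      x * (g * z * g⁻¹) * x⁻¹ = z := by
  have h2p : Fact (Nat.Prime 2) := ⟨Nat.prime_two⟩
  have hQC : Q ≤ centralizer ({z} : Set G) := by rw [← hF]; exact map_subtype_le _
  have hgz : g * z * g⁻¹ ≠ z := by
    intro h2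
    rw [h2] at hgQ hgZ
    apply hgZ
    refine ⟨⟨z, hgQ⟩, ?_, rfl⟩
    rw [SetLike.mem_coe, mem_center_iff]
    intro y
    exact Subtype.ext (mem_centralizer_singleton_iff.mp (hQC y.2))
  have hPack : Pack Q z := by
    have hgQ' := hgQ
    rw [← hF] at hgQ'
    obtain ⟨y, hy, hyg⟩ := hgQ'
    have e : Q ≃* Cfsg.generalizedFittingSubgroup ↥(Subgroup.centralizer ({z} : Set G)) :=
      (MulEquiv.subgroupCongr hF.symm).trans (Subgroup.equivMapOfInjective _ _
        (Subgroup.subtype_injective _)).symm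
    have h1 := (H91.Setting.pack_of_setting (w := w) (z := z)
      (Q := Cfsg.generalizedFittingSubgroup ↥(Subgroup.centralizer ({z} : Set G)))
      ⟨hz, rfl, H56.Heis.isExtraspecial_congr e hQ, by
        rw [← hcard]; exact (Nat.card_congr e.toEquiv).symm, g, ⟨by
          rw [← hyg]; exact y.2, by
          have : (⟨g * z * g⁻¹, by rw [← hyg]; exact y.2⟩ : centralizer ({z} : Set G)) = y :=
            Subtype.ext hyg.symm
          rw [this]; exact hy⟩, hgz⟩).1
    rwa [hF] at h1
  have hQp : IsPGroup 2 Q := hQ.1.1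
  have h32 : 2 ^ 7 ≤ Nat.card Q := by
    rw [hcard]
    exact Nat.pow_le_pow_right (by norm_num) (by omega)
  have h := pair_of_pack hPack (by omega) hgQ hgz
  set Q1 := (Q).map (MulAut.conj g).toMonoidHom with hQ1
  set s := g * z * g⁻¹ with hs
  have hzs : IsConj z s := isConj_iff.mpr ⟨g, rfl⟩
  have hst : ¬ IsConj s t := fun h1 => htz (hzs.trans h1)
  have ht1 : t ≠ 1 := by
    intro h1; rw [h1, orderOf_one] at ht; omega
  have htz' : t ≠ z := fun h1 => htz (h1 ▸ IsConj.refl z)
  have htt : t * t = 1 := by rw [← pow_two, ← ht, pow_orderOf_eq_one]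
  obtain ⟨k, hk, hkz⟩ := h.exists_fuse htQ.1 htQ.2 ht1 hst htz
  rw [← hP] at hk
  refine ⟨?_, k⁻¹, inv_mem hk, ?_⟩
  swap
  · rw [← hkz]; group
  -- the quotient
  set Ct := centralizer ({t} : Set G) with hCt
  have hPle : P ≤ Ct := by rw [hP]; exact inf_le_right
  have hPQ : P ≤ Q := by rw [hP]; exact inf_le_left
  have htzc : t * z = z * t := hPack.zc t htQ.1
  have hzP : z ∈ P := by
    rw [hP]
    exact ⟨hPack.zQ, mem_centralizer_singleton_iff.mpr htzc.symm⟩
  have hsP : s ∈ P := by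
    rw [hP]
    exact ⟨hgQ, mem_centralizer_singleton_iff.mpr (h.P1.zc t htQ.2).symm⟩
  have hkC : k ∈ Ct := (sup_le hPle inf_le_right : _ ≤ Ct) hk
  -- `z t` is conjugate to `t`
  have hztt : ¬ IsConj z (z * t) := by
    intro h1
    obtain ⟨u, hu, hut⟩ := hPack.exists_shift htQ.1 ht1 htz'
    apply htz
    rw [← hut] at h1
    exact h1.trans (isConj_comm.mp (isConj_iff.mpr ⟨u, rfl⟩))
  set T := (zpowers t).subgroupOf Ct with hT
  set π := QuotientGroup.mk' T with hπ
  have hpow : ∀ x ∈ zpowers t, x = 1 ∨ x = t := by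
    intro x hx
    obtain ⟨j, rfl⟩ := mem_zpowers_iff.mp hx
    have h2 : t ^ (2 : ℤ) = 1 := by
      rw [show (2 : ℤ) = ((2 : ℕ) : ℤ) from rfl, zpow_natCast, pow_two]; exact htt
    rcases Int.even_or_odd' j with ⟨m, hm | hm⟩
    · left; rw [hm, zpow_mul, h2, one_zpow]
    · right; rw [hm, zpow_add, zpow_mul, h2, one_zpow, one_mul, zpow_one]
  have heq : ∀ a b : Ct, π a = π b ↔ ((b : G) = a ∨ (b : G) = a * t) := by
    intro a b
    rw [hπ, QuotientGroup.mk'_eq_mk']
    constructor
    · rintro ⟨x, hx, rfl⟩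
      rcases hpow _ hx with h1 | h1
      · left
        change (a : G) * (x : G) = a
        change ((x : Ct) : G) = 1 at h1
        rw [h1, mul_one]
      · right
        change (a : G) * (x : G) = a * t
        change ((x : Ct) : G) = t at h1
        rw [h1]
    · rintro (h1 | h1)
      · exact ⟨1, one_mem _, Subtype.ext (by rw [h1]; simp)⟩
      · exact ⟨⟨t, mem_centralizer_singleton_iff.mpr rfl⟩, mem_zpowers t, Subtype.ext (by rw [h1]; rfl)⟩
  set Pb := (P.subgroupOf Ct).map π with hPb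
  have hlift : ∀ x ∈ Pb, ∃ a : Ct, (a : G) ∈ P ∧ π a = x := by
    rintro _ ⟨a, ha, rfl⟩
    exact ⟨a, ha, rfl⟩
  have hmemPb : ∀ a : Ct, (a : G) ∈ P → π a ∈ Pb := fun a ha => ⟨a, ha, rfl⟩
  let zC : Ct := ⟨z, hPle hzP⟩
  let sC : Ct := ⟨s, hPle hsP⟩
  let kC : Ct := ⟨k, hkC⟩
  have hzne : π zC ≠ 1 := by
    intro h1
    rw [← map_one π] at h1
    rcases (heq _ _).mp h1 with h2 | h2
    · exact h.P.z1 h2.symm
    · have h3 : z * t = 1 := h2.symm
      have h4 := eq_inv_of_mul_eq_one_right h3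
      rw [h.zi] at h4
      exact htz' h4
  -- if `c̄` commutes with `z̄` then `c` commutes with `z`
  have hcz : ∀ c : Ct, π c * π zC = π zC * π c → (c : G) * z = z * c := by
    intro c hc
    rw [← map_mul, ← map_mul, heq] at hc
    rcases hc with h1 | h1
    · exact h1.symm
    · exfalso
      apply hztt
      have h2 : z * (c : G) = c * z * t := h1
      refine isConj_iff.mpr ⟨(c : G)⁻¹, ?_⟩
      calc (c : G)⁻¹ * z * (c : G)⁻¹⁻¹ = (c : G)⁻¹ * (z * c) := by group
        _ = z * t := by rw [h2]; group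
  have hmul1 : ∀ a : Ct, (a : G) = 1 ∨ (a : G) = z → π a = 1 ∨ π a = π zC := by
    rintro a (h1 | h1)
    · left
      have : a = 1 := Subtype.ext h1
      rw [this, map_one]
    · right
      have : a = zC := Subtype.ext h1
      rw [this]
  have hC : ∀ x, (∀ q ∈ Pb, q * x = x * q) → x = 1 ∨ x = π zC := by
    intro x hx
    obtain ⟨c, rfl⟩ := QuotientGroup.mk'_surjective T x
    have h1 := hcz c (hx _ (hmemPb zC hzP)).symm
    have h2 : ∀ p ∈ P, c * p * (c : G)⁻¹ = p ∨ c * p * (c : G)⁻¹ = p * t := by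
      intro p hp
      have h3 := hx _ (hmemPb ⟨p, hPle hp⟩ hp)
      change π _ * π c = π c * π _ at h3
      rw [← map_mul, ← map_mul, heq] at h3
      have htc : (c : G) * t = t * c := mem_centralizer_singleton_iff.mp c.2
      rcases h3 with h3 | h3
      · left
        have h4 : (c : G) * p = p * c := h3
        rw [h4, mul_inv_cancel_right]
      · right
        have h4 : (c : G) * p = p * c * t := h3
        rw [h4, mul_assoc p, htc, ← mul_assoc, mul_inv_cancel_right]
    have h3 : (c : G) ∈ Q := by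
      rw [← hCP c (mem_centralizer_singleton_iff.mpr h1)]
      intro p hp
      rcases h2 p hp with h4 | h4
      · exact ⟨1, one_mem _, by rw [h4, mul_one]⟩
      · exact ⟨t, Subgroup.subset_closure (Set.mem_insert _ _), h4⟩
    have h4 : ∀ p ∈ P, p * (c : G) = c * p := by
      intro p hp
      rcases h2 p hp with h5 | h5
      · exact (mul_inv_eq_iff_eq_mul.mp h5).symm
      · exfalso
        have h6 : (c : G) * p * (c : G)⁻¹ * p⁻¹ = t := by
          rw [h5]
          have htp : p * t = t * p := mem_centralizer_singleton_iff.mp (hPle hp)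
          rw [htp, mul_inv_cancel_right]
        rcases h.P.comm c h3 p (hPQ hp) with h7 | h7
        · exact ht1 (h6.symm.trans h7)
        · exact htz' (h6.symm.trans h7)
    have h5 := h.P.double_cen htQ.1 ht1 htz' h3 (fun a ha hat => h4 a (by
      rw [hP]; exact ⟨ha, mem_centralizer_singleton_iff.mpr hat⟩))
    rcases h5 with h5 | h5 | h5 | h5
    · exact hmul1 c (Or.inl h5)
    · exact hmul1 c (Or.inr h5)
    · left
      rw [← map_one π, heq]
      right
      rw [h5, htt]; rfl
    · right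
      change π c = π zC
      rw [heq]
      right
      change z = c * t
      rw [h5, htzc, mul_assoc, htt, mul_one]
  have hPackb : Pack Pb (π zC) := by
    refine ⟨hmemPb zC hzP, hzne, ?_, ?_, fun x _ hx => hC x hx, ?_, ?_, hC, ?_⟩
    · rw [← map_mul]
      have : zC * zC = 1 := Subtype.ext h.P.zz
      rw [this, map_one]
    · intro q hq
      obtain ⟨a, ha, rfl⟩ := hlift q hq
      rw [← map_mul, ← map_mul]
      congr 1
      exact Subtype.ext (h.P.zc a (hPQ ha))
    · intro x hx y hy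
      obtain ⟨a, ha, rfl⟩ := hlift x hx
      obtain ⟨b, hb, rfl⟩ := hlift y hy
      rw [← map_inv, ← map_inv, ← map_mul, ← map_mul, ← map_mul]
      exact hmul1 _ (h.P.comm a (hPQ ha) b (hPQ hb))
    · intro x hx
      obtain ⟨a, ha, rfl⟩ := hlift x hx
      rw [← map_mul]
      exact hmul1 _ (h.P.sq a (hPQ ha))
    · intro x hx q hq
      obtain ⟨c, rfl⟩ := QuotientGroup.mk'_surjective T x
      obtain ⟨a, ha, rfl⟩ := hlift q hq
      have h1 := hcz c hx
      change π c * π a * (π c)⁻¹ ∈ Pb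
      rw [← map_mul, ← map_inv, ← map_mul]
      apply hmemPb
      rw [hP]
      refine ⟨h.P.N c h1 a (hPQ ha), ?_⟩
      exact (c * a * c⁻¹).2
  have hsz' : π sC ≠ π zC := by
    intro h1
    rcases (heq _ _).mp h1 with h2 | h2
    · exact h.sz h2.symm
    · have h3 : z = s * t := h2
      apply hztt
      have h4 : z * t = s := by rw [h3, mul_assoc, htt, mul_one]
      rw [h4]; exact hzs
  have hcardP : 8 < Nat.card Pb := by
    -- `|Q| ≤ 2 |P|`, `|P| ≤ 2 |Pb|`
    have h1 : Nat.card Q ≤ 2 * Nat.card P := by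
      have h2 : P = centralizer ({t} : Set G) ⊓ Q := by rw [hP, inf_comm]
      have h3 : P.relIndex Q = (centralizer ({t} : Set G)).relIndex Q := by
        rw [h2, inf_relIndex_right]
      have h4 := H28.RelSyl.relIndex_mul_card hPQ
      rw [← h4, h3, H91.LargePair2.relIndex_centralizer_singleton]
      apply Nat.mul_le_mul_right
      have h5 : {y : G | ∃ n ∈ Q, y = n * t * n⁻¹} ⊆ {t, z * t} := by
        rintro y ⟨n, hnQ, rfl⟩
        rcases h.P.comm n hnQ t htQ.1 with h6 | h6
        · left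
          exact mul_inv_eq_one.mp h6
        · right
          exact mul_inv_eq_iff_eq_mul.mp h6
      exact (Set.ncard_le_ncard h5 (Set.toFinite _)).trans (Set.ncard_insert_le _ _ |>.trans
        (by rw [Set.ncard_singleton]))
    have h2 : Nat.card P ≤ 2 * Nat.card Pb := by
      let φ : P.subgroupOf Ct →* (Ct ⧸ T) := π.comp (P.subgroupOf Ct).subtype
      have h3 : φ.range = Pb := by
        rw [MonoidHom.range_comp, range_subtype]
      have h4 : Nat.card φ.ker ≤ 2 := by
        have hsub : ∀ x : φ.ker, (((x : P.subgroupOf Ct) : Ct) : G) ∈ ({1, t} : Set G) := by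
          intro x
          have h5 : π ((x : P.subgroupOf Ct) : Ct) = π 1 := by
            rw [map_one]; exact x.2
          rcases (heq _ _).mp h5.symm with h6 | h6
          · left; exact h6
          · right
            have h7 : (((x : P.subgroupOf Ct) : Ct) : G) = 1 * t := h6
            rw [one_mul] at h7
            exact h7
        have h5 : Nat.card φ.ker ≤ Nat.card ({1, t} : Set G) := by
          apply Nat.card_le_card_of_injective (fun x => (⟨_, hsub x⟩ : ({1, t} : Set G)))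
          intro x y hxy
          have h6 : (((x : P.subgroupOf Ct) : Ct) : G) = (((y : P.subgroupOf Ct) : Ct) : G) :=
            Subtype.mk.inj hxy
          exact Subtype.ext (Subtype.ext (Subtype.ext h6))
        refine h5.trans ?_
        change Set.ncard ({1, t} : Set G) ≤ 2
        exact (Set.ncard_insert_le _ _).trans (by rw [Set.ncard_singleton])
      have h5 : Nat.card (P.subgroupOf Ct) = Nat.card φ.ker * Nat.card φ.range := by
        rw [← Subgroup.index_ker, Subgroup.card_mul_index]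
      rw [H28.RelSyl.card_subgroupOf hPle] at h5
      rw [h5, h3]
      exact Nat.mul_le_mul_right _ h4
    omega
  refine large_of_pack hPackb ?_ hcardP ?_ ⟨π kC, ?_, ?_⟩
  · exact ((hQp.to_le hPQ).comap_of_injective Ct.subtype Ct.subtype_injective).map _
  · obtain ⟨a, ha, b, hb, hat, hbt, hab⟩ := h.P.exists_noncomm htQ.1 ht1 htz' (by omega)
    have haP : a ∈ P := by rw [hP]; exact ⟨ha, mem_centralizer_singleton_iff.mpr hat⟩
    have hbP : b ∈ P := by rw [hP]; exact ⟨hb, mem_centralizer_singleton_iff.mpr hbt⟩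
    refine ⟨π ⟨a, hPle haP⟩, hmemPb _ haP, π ⟨b, hPle hbP⟩, hmemPb _ hbP, ?_⟩
    intro h1
    rw [← map_mul, ← map_mul, heq] at h1
    rcases h1 with h1 | h1
    · have h2 : b * a = a * b := h1
      rw [hab] at h2
      exact h.P.z1 (mul_eq_right.mp h2.symm)
    · have h2 : b * a = a * b * t := h1
      rw [hab] at h2
      -- b a = z b a t
      have h3 : b * a = z * t * (b * a) := by
        have hbat : b * a * t = t * (b * a) := by
          rw [mul_assoc, hat, ← mul_assoc, hbt, mul_assoc]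
        calc b * a = z * (b * a) * t := h2
          _ = z * (b * a * t) := by group
          _ = z * (t * (b * a)) := by rw [hbat]
          _ = _ := by group
      have h4 : z * t = 1 := mul_eq_right.mp h3.symm
      have h5 := eq_inv_of_mul_eq_one_right h4
      rw [h.zi] at h5
      exact htz' h5
  · rw [← map_mul, ← map_inv, ← map_mul]
    apply hmemPb
    change k * z * k⁻¹ ∈ P
    rw [hkz]; exact hsP
  · rw [← map_mul, ← map_inv, ← map_mul]
    have : kC * zC * kC⁻¹ = sC := Subtype.ext hkz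
    rw [this]
    exact hsz'

end H28.LPair
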