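import Cfsg.Agent.Lib.H83.BdC1
import Cfsg.Agent.Lib.H18.OddOrder
import Cfsg.Agent.Lib.H2.Solv
import Cfsg.Agent.Lib.H1.Cores

/-!
Piece X1 of S4221: in a doubly transitive group in the setting of Bender's theorem without commuting involutions,
an involution is determined by its fixed point.
-/

set_option autoImplicit false
set_option linter.unusedVariables false

namespace H28.MHX1

universe u v

theorem abel {X : Type u} [Group X] [Finite X] (hne : Cfsg.pPrimeCore 2 X ≠ ⊥) :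
    ∃ E : Subgroup X, E.Normal ∧ E ≠ ⊥ ∧ ∀ x ∈ E, ∀ y ∈ E, x * y = y * x := by
  haveI : Fact (Nat.Prime 2) := ⟨Nat.prime_two⟩
  haveI hn : (Cfsg.pPrimeCore 2 X).Normal := inferInstance
  have hodd : Odd (Nat.card (Cfsg.pPrimeCore 2 X)) := by
    have h1 : (Nat.card (Cfsg.pPrimeCore 2 X)).Coprime 2 := H1.Cores.coprime_card_pPrimeCore 2
    exact H83.BdC.coprime_two_iff.1 h1
  haveI : Nontrivial (Cfsg.pPrimeCore 2 X) := (Subgroup.nontrivial_iff_ne_bot _).2 hne
  obtain ⟨D, hD, hDb, hDc⟩ := H2.Solv.exists_char_abelian _ (H18.OddOrder.solvable hodd)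
  refine ⟨D.map (Cfsg.pPrimeCore 2 X).subtype, inferInstance, ?_, ?_⟩
  · intro h
    exact hDb ((Subgroup.map_eq_bot_iff_of_injective _ (Subgroup.subtype_injective _)).1 h)
  · rintro _ ⟨x, hx, rfl⟩ _ ⟨y, hy, rfl⟩
    have h3 := congrArg Subtype.val (hDc.is_comm.comm ⟨x, hx⟩ ⟨y, hy⟩)
    exact congrArg (Cfsg.pPrimeCore 2 X).subtype h3

theorem uniq_inv {X : Type u} {Ω : Type v} [Group X] [Finite X] [MulAction X Ω] [FaithfulSMul X Ω] (B : H57.Bd.Bd X Ω)
    (h2 : ∀ a b c d : Ω, a ≠ b → c ≠ d → ∃ g : X, g • a = c ∧ g • b = d) (hF : ¬ H16.BD.Four X) (ω : Ω) (s t : X)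
    (hs : orderOf s = 2) (ht : orderOf t = 2) (h1 : s • ω = ω) (h3 : t • ω = ω) : s = t := by
  have fix : ∀ r : X, orderOf r = 2 → r • ω = ω → ∀ b : Ω, r • b = b → b = ω := by
    intro r hr hω b hb
    obtain ⟨a, -, hu⟩ := B.uniq r hr
    rw [hu b hb, hu ω hω]
  have hsq : ∀ r : X, orderOf r = 2 → r * r = 1 := by
    intro r hr
    rw [← pow_two, ← hr]; exact pow_orderOf_eq_one r
  -- the odd core is not trivial
  have hO : Cfsg.pPrimeCore 2 X ≠ ⊥ := by
    intro h0
    have hz : ∀ g : X, g * s * g⁻¹ = s := by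
      intro g
      have h5 := H5.ZStar.zstar (H83.BdC.isoInv_of_not_four hF hs) g
      rw [h0, Subgroup.mem_bot] at h5
      have h6 := hsq s hs
      calc g * s * g⁻¹ = s * s * (g * s * g⁻¹) := by rw [h6, one_mul]
        _ = s * (s * (g * s * g⁻¹)) := by rw [mul_assoc]
        _ = s := by rw [h5, mul_one]
    obtain ⟨a, b, hab⟩ := B.two
    have hall : ∀ c : Ω, s • c = c := by
      intro c
      obtain ⟨g, rfl⟩ := B.trans ω c
      have h7 : s * g = g * s := by
        have := hz g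
        calc s * g = g * s * g⁻¹ * g := by rw [this]
          _ = g * s := by group
      rw [← mul_smul, h7, mul_smul, h1]
    exact hab ((fix s hs h1 a (hall a)).trans (fix s hs h1 b (hall b)).symm)
  obtain ⟨E, hEn, hEb, hEc⟩ := abel hO
  -- `E` is transitive
  obtain ⟨e, he, he1⟩ : ∃ e : X, e ∈ E ∧ e ≠ 1 := by
    by_contra hcon
    push Not at hcon
    exact hEb ((Subgroup.eq_bot_iff_forall E).2 hcon)
  obtain ⟨a, ha⟩ : ∃ a : Ω, e • a ≠ a := by
    by_contra hcon
    push Not at hcon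
    exact he1 (FaithfulSMul.eq_of_smul_eq_smul (α := Ω) fun x => by rw [hcon x, one_smul])
  have htr : ∀ c : Ω, ∃ x ∈ E, x • ω = c := by
    intro c
    by_cases hc : c = ω
    · exact ⟨1, E.one_mem, by rw [one_smul, hc]⟩
    · obtain ⟨g, hg1, hg2⟩ := h2 a (e • a) ω c (fun h => ha h.symm) (fun h => hc h.symm)
      refine ⟨g * e * g⁻¹, hEn.conj_mem e he g, ?_⟩
      have h5 : g⁻¹ • ω = a := by rw [← hg1, inv_smul_smul]
      rw [mul_smul, mul_smul, h5, hg2]
  have hreg : ∀ x ∈ E, x • ω = ω → x = 1 := by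
    intro x hx hxo
    refine FaithfulSMul.eq_of_smul_eq_smul (α := Ω) fun c => ?_
    obtain ⟨y, hy, rfl⟩ := htr c
    rw [one_smul, ← mul_smul, hEc x hx y hy, mul_smul, hxo]
  have hinv : ∀ r : X, orderOf r = 2 → r • ω = ω → ∀ x ∈ E, r * x * r⁻¹ = x⁻¹ := by
    intro r hr hω x hx
    have hrr := hsq r hr
    have hri : r⁻¹ = r := inv_eq_of_mul_eq_one_left hrr
    have hy : r * x * r⁻¹ ∈ E := hEn.conj_mem x hx r
    -- `x * x^r` is centralised by `r`
    have h5 : r * (x * (r * x * r⁻¹)) = x * (r * x * r⁻¹) * r := by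
      calc r * (x * (r * x * r⁻¹)) = (r * x * r⁻¹) * (r * r) * x * r⁻¹ := by group
        _ = (r * x * r⁻¹) * x * r⁻¹ := by rw [hrr, mul_one]
        _ = x * (r * x * r⁻¹) * r⁻¹ := by rw [hEc _ hy x hx]
        _ = x * (r * x * r⁻¹) * r := by rw [hri]
    have h6 : r • ((x * (r * x * r⁻¹)) • ω) = (x * (r * x * r⁻¹)) • ω := by
      rw [← mul_smul, h5, mul_smul, hω]
    have h7 := hreg _ (E.mul_mem hx hy) (fix r hr hω _ h6)
    exact (inv_eq_of_mul_eq_one_right h7).symm
  have hst : s * t = 1 := by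
    refine FaithfulSMul.eq_of_smul_eq_smul (α := Ω) fun c => ?_
    obtain ⟨y, hy, rfl⟩ := htr c
    have h5 : s * t * y = y * (s * t) := by
      have e1 := hinv t ht h3 y hy
      have e2 := hinv s hs h1 y⁻¹ (E.inv_mem hy)
      calc s * t * y = s * (t * y * t⁻¹) * s⁻¹ * (s * t) := by group
        _ = s * y⁻¹ * s⁻¹ * (s * t) := by rw [e1]
        _ = y * (s * t) := by rw [e2, inv_inv]
    rw [one_smul, ← mul_smul, h5, mul_smul, mul_smul, h3, h1]
  calc s = s * (t * t) := by rw [hsq t ht, mul_one]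
    _ = s * t * t := by rw [mul_assoc]
    _ = t := by rw [hst, one_mul]

end H28.MHX1
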