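import Mathlib
import Cfsg.Prelude.Def_Local
import Cfsg.Prelude.Def_CaseTheorems
import Cfsg.Agent.Lib.H28.Cj
import Cfsg.Agent.Lib.H28.RelSyl
import Cfsg.Agent.Lib.H28.GLComp
import Cfsg.Agent.Lib.H26.Components

/-!
A standard subgroup of `SL(n, F)`, `n` odd.
-/

set_option autoImplicit false

open Cfsg Subgroup H28.Cj

namespace H28.SLStd

section abs

variable {G : Type*} [Group G] [Finite G]

omit [Finite G] in
theorem layer_eq {t : G} {L : Subgroup G} (hq : IsQuasisimple L)
    (hLC : L ≤ centralizer ({t} : Set G)) (hn : centralizer ({t} : Set G) ≤ normalizer (L : Set G))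
    (hK : ∀ x ∈ centralizer (L : Set G), ∀ y ∈ centralizer (L : Set G), x * y = y * x) :
    (layer (centralizer ({t} : Set G))).map (centralizer ({t} : Set G)).subtype = L := by
  set C := centralizer ({t} : Set G) with hC
  have hnn : (L.subgroupOf C).Normal := (normal_subgroupOf_iff_le_normalizer hLC).mpr hn
  have hcomp : IsComponent (L.subgroupOf C) :=
    ⟨hnn.isSubnormal, (H26.Components.isQuasisimple_subgroupOf hLC).mpr hq⟩
  have h1 : layer C = L.subgroupOf C := by
    apply le_antisymm
    · refine sSup_le fun M hM => ?_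
      rcases H26.Components.eq_or_commutator_eq_bot hM hcomp with h | h
      · exact h.le
      · exfalso
        rw [commutator_eq_bot_iff_le_centralizer] at h
        apply H26.Quasisimple.not_isMulCommutative hM.2
        have hMc : ∀ x ∈ M, (x : G) ∈ centralizer (L : Set G) := by
          intro x hx
          rw [mem_centralizer_iff]
          intro l hl
          exact congrArg Subtype.val (mem_centralizer_iff.mp (h hx) ⟨l, hLC hl⟩ hl)
        exact ⟨⟨fun x y => Subtype.ext (Subtype.ext (hK _ (hMc x x.2) _ (hMc y y.2)))⟩⟩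
    · exact H26.Components.le_layer hcomp
  rw [h1, subgroupOf_map_subtype, inf_eq_left.mpr hLC]

theorem standard_of {t : G} (ht : orderOf t = 2) {L : Subgroup G} (hq : IsQuasisimple L)
    (hLC : L ≤ centralizer ({t} : Set G)) (hn : centralizer ({t} : Set G) ≤ normalizer (L : Set G))
    (hK : ∀ x ∈ centralizer (L : Set G), ∀ y ∈ centralizer (L : Set G), x * y = y * x)
    (hu : ∀ x ∈ centralizer (L : Set G), orderOf x = 2 → x = t) :
    IsStandardSubgroup
      ((layer (centralizer ({t} : Set G))).map (centralizer ({t} : Set G)).subtype) := by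
  have h2p : Fact (Nat.Prime 2) := ⟨Nat.prime_two⟩
  rw [layer_eq hq hLC hn hK]
  have htK : t ∈ centralizer (L : Set G) := by
    rw [mem_centralizer_iff]
    intro l hl
    exact mem_centralizer_singleton_iff.mp (hLC hl)
  have hNK : normalizer (centralizer (L : Set G) : Set G) ≤ normalizer (L : Set G) := by
    intro g hg
    apply hn
    rw [mem_centralizer_singleton_iff]
    have h1 : g * t * g⁻¹ ∈ centralizer (L : Set G) := (mem_normalizer_iff.mp hg t).mp htK
    have h2 : orderOf (g * t * g⁻¹) = 2 := by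
      rw [← ht]; exact MulEquiv.orderOf_eq (MulAut.conj g) t
    have h3 := hu _ h1 h2
    rwa [mul_inv_eq_iff_eq_mul] at h3
  refine ⟨hq, ⟨?_, ?_⟩, ?_, ?_⟩
  · rw [even_iff_two_dvd, ← ht, ← Subgroup.orderOf_mk t htK]
    exact orderOf_dvd_natCard _
  · intro g hg
    rw [← Nat.not_even_iff_odd, even_iff_two_dvd]
    intro hd
    apply hg
    obtain ⟨s, hs⟩ := exists_prime_orderOf_dvd_card' (G := ↥(centralizer (L : Set G) ⊓
      (centralizer (L : Set G)).map (MulAut.conj g).toMonoidHom)) 2 hd
    rw [← Subgroup.orderOf_coe] at hs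
    have h1 := hu _ s.2.1 hs
    obtain ⟨y, hy, h3⟩ := s.2.2
    have h4 : g * y * g⁻¹ = s := h3
    have h5 : orderOf y = 2 := by
      rw [← hs, ← h4]; exact (MulEquiv.orderOf_eq (MulAut.conj g) y).symm
    have h6 := hu _ hy h5
    have hgt : g ∈ centralizer ({t} : Set G) := by
      rw [mem_centralizer_singleton_iff]
      rw [h6, h1, mul_inv_eq_iff_eq_mul] at h4
      exact h4
    have h7 : centralizer ((centralizer (L : Set G) : Subgroup G) : Set G) ≤
      normalizer (centralizer (L : Set G) : Set G) := centralizer_le_normalizer _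
    -- `C(t) ≤ N(L) ≤ N(C(L))`
    have h8 := hn hgt
    rw [mem_normalizer_iff_cj] at h8 ⊢
    rw [cj_centralizer, h8]
  · intro g _ hcomm
    rw [commutator_eq_bot_iff_le_centralizer] at hcomm
    apply H26.Quasisimple.not_isMulCommutative hq
    refine ⟨⟨fun a b => Subtype.ext ?_⟩⟩
    have h1 : ∀ l ∈ L, g * l * g⁻¹ ∈ centralizer (L : Set G) := by
      intro l hl
      exact (le_centralizer_iff.mp hcomm) ⟨l, hl, rfl⟩
    have h2 := hK _ (h1 a a.2) _ (h1 b b.2)
    have h3 : g * (a * b : G) * g⁻¹ = g * (b * a : G) * g⁻¹ := by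
      calc g * (a * b : G) * g⁻¹ = (g * a * g⁻¹) * (g * b * g⁻¹) := by group
        _ = (g * b * g⁻¹) * (g * a * g⁻¹) := h2
        _ = _ := by group
    exact mul_left_cancel (mul_right_cancel h3)
  · refine le_antisymm ?_ hNK
    intro g hg
    rw [mem_normalizer_iff_cj] at hg ⊢
    rw [cj_centralizer, hg]

end abs

open Matrix

section mat

variable {F : Type*} [Field F] [Fintype F] {m n : ℕ} (e : Unit ⊕ Fin m ≃ Fin n)

open H28.GLComp

omit [Fintype F] in
theorem det_blk (a : F) (D : Matrix (Fin m) (Fin m) F) : (blk e a D).det = a * D.det := by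
  unfold blk
  rw [coe_reindexAlgEquiv, det_reindex_self, det_fromBlocks_zero₁₂]
  simp

/-- the embedding of `SL_m` in `SL_n` -/
noncomputable def sl : SpecialLinearGroup (Fin m) F →* SpecialLinearGroup (Fin n) F where
  toFun s := ⟨blk e 1 s.1, by rw [det_blk, s.2, mul_one]⟩
  map_one' := Subtype.ext (blk_one e)
  map_mul' s t := Subtype.ext (by
    change blk e 1 (s.1 * t.1) = blk e 1 s.1 * blk e 1 t.1
    rw [blk_mul, mul_one])

omit [Fintype F] in
theorem coe_sl (s : SpecialLinearGroup (Fin m) F) : (sl e s).1 = blk e 1 s.1 := rfl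

omit [Fintype F] in
theorem sl_injective : Function.Injective (sl (F := F) e) := fun _ _ h =>
  Subtype.ext (blk_injective e (congrArg Subtype.val h)).2

omit [Fintype F] in
theorem blk_neg (a : F) (D : Matrix (Fin m) (Fin m) F) : blk e (-a) (-D) = - blk e a D := by
  unfold blk
  rw [← map_neg, fromBlocks_neg]
  simp

omit [Fintype F] in
theorem exists_blk' (h2 : (2 : F) ≠ 0) {g : Matrix (Fin n) (Fin n) F}
    (h : g * blk e 1 (-1) = blk e 1 (-1) * g) : ∃ a D, g = blk e a D := by
  apply exists_blk e h2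
  have h1 : blk e (-1 : F) 1 = - blk e 1 (-1) := by rw [← blk_neg, neg_neg]
  rw [h1, mul_neg, neg_mul, h]

omit [Fintype F] in
theorem scalar_of_comm {D : Matrix (Fin m) (Fin m) F}
    (h : ∀ s : SpecialLinearGroup (Fin m) F, D * s.1 = s.1 * D) : ∃ a : F, D = a • 1 := by
  have h1 : D ∈ Set.range (Matrix.scalar (Fin m)) := by
    apply Matrix.mem_range_scalar_of_commute_single
    intro i j hij
    have h3 := h ⟨Matrix.transvection i j 1, Matrix.det_transvection_of_ne i j hij 1⟩
    change D * Matrix.transvection i j 1 = Matrix.transvection i j 1 * D at h3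
    unfold Matrix.transvection at h3
    rw [mul_add, add_mul, mul_one, one_mul] at h3
    exact (add_left_cancel h3).symm
  obtain ⟨a, ha⟩ := h1
  refine ⟨a, ?_⟩
  rw [← ha, Matrix.scalar_apply, ← Matrix.smul_one_eq_diagonal]

omit [Fintype F] in
/-- the centralizer of `SL_m` -/
theorem mem_cent (hm : Even m) (h2 : (2 : F) ≠ 0) {g : SpecialLinearGroup (Fin n) F}
    (hg : g ∈ centralizer ((sl (F := F) e).range : Set (SpecialLinearGroup (Fin n) F))) :
    ∃ a b : F, g.1 = blk e a (b • 1) ∧ a * b ^ m = 1 := by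
  rw [mem_centralizer_iff] at hg
  have hc : ∀ s : SpecialLinearGroup (Fin m) F, g.1 * blk e 1 s.1 = blk e 1 s.1 * g.1 := by
    intro s
    exact (congrArg Subtype.val (hg (sl e s) ⟨s, rfl⟩)).symm
  have hdet : (-1 : Matrix (Fin m) (Fin m) F).det = 1 := by
    rw [det_neg, det_one, mul_one, Fintype.card_fin, hm.neg_one_pow]
  obtain ⟨a, D, hD⟩ := exists_blk' e h2 (hc ⟨-1, hdet⟩)
  have h3 : ∀ s : SpecialLinearGroup (Fin m) F, D * s.1 = s.1 * D := by
    intro s
    have := hc s
    rw [hD, blk_mul, blk_mul] at this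
    exact (blk_injective e this).2
  obtain ⟨b, rfl⟩ := scalar_of_comm h3
  refine ⟨a, b, hD, ?_⟩
  have h4 := g.2
  rw [hD, det_blk, det_smul, det_one, mul_one, Fintype.card_fin] at h4
  exact h4

end mat

theorem main {F : Type*} [Field F] [Fintype F] [DecidableEq F] (hF : Odd (Fintype.card F)) (n : ℕ)
    (hn : 7 ≤ n) (hodd : Odd n) (t : Matrix.SpecialLinearGroup (Fin n) F)
    (ht : (t : Matrix (Fin n) (Fin n) F) =
      Matrix.diagonal (fun i : Fin n => if (i : ℕ) + 1 = n then (1 : F) else -1)) :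
    Cfsg.IsStandardSubgroup ((Cfsg.layer ↥(Subgroup.centralizer
      ({t} : Set (Matrix.SpecialLinearGroup (Fin n) F)))).map
      (Subgroup.centralizer ({t} : Set (Matrix.SpecialLinearGroup (Fin n) F))).subtype) := by
  have h2 : (2 : F) ≠ 0 := by
    intro h
    have h3 : ringChar F = 2 := by
      have h4 : ringChar F ∣ 2 := ringChar.dvd (by exact_mod_cast h)
      exact ((Nat.dvd_prime Nat.prime_two).mp h4).resolve_left (CharP.ringChar_ne_one)
    have h5 := FiniteField.even_card_of_char_two h3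
    obtain ⟨k, hk⟩ := hF
    omega
  obtain ⟨m, rfl⟩ : ∃ m, n = m + 1 := ⟨n - 1, by omega⟩
  have hm : Even m := by
    rcases Nat.even_or_odd m with h | h
    · exact h
    · exact absurd hodd (Nat.not_odd_iff_even.mpr h.add_one)
  let e : Unit ⊕ Fin m ≃ Fin (m + 1) :=
    (Equiv.sumComm _ _).trans
    ((Equiv.sumCongr (Equiv.refl (Fin m)) (Equiv.ofUnique Unit (Fin 1))).trans finSumFinEquiv)
  have hexx : ¬ (m = 2 ∧ Fintype.card F ≤ 3) := by rintro ⟨rfl, -⟩; omega
  have hQ := H28.GLComp.sl_quasisimple (F := F) m (by omega) hexx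
  have htb : t.1 = H28.GLComp.blk e 1 (-1) := by
    rw [show t.1 = _ from ht]
    unfold H28.GLComp.blk
    ext i j
    rw [coe_reindexAlgEquiv, reindex_apply, submatrix_apply]
    obtain ⟨i', rfl⟩ := e.surjective i
    obtain ⟨j', rfl⟩ := e.surjective j
    rw [Equiv.symm_apply_apply, Equiv.symm_apply_apply]
    have hl : ∀ u : Unit, (e (Sum.inl u) : ℕ) = m := by
      intro u; simp [e]
    have hr : ∀ k : Fin m, (e (Sum.inr k) : ℕ) = k := by
      intro k; simp [e]
    rw [diagonal_apply]
    rcases i' with i' | i' <;> rcases j' with j' | j'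
    · simp [hl]
    · simp
    · simp
    · have h5 : (i' : ℕ) ≠ m := i'.2.ne
      by_cases h6 : i' = j'
      · simp [hr, h6]
        intro h; exact absurd h j'.2.ne
      · simp [h6]
  have hblk : ∀ g ∈ centralizer ({t} : Set (Matrix.SpecialLinearGroup (Fin (m + 1)) F)),
      ∃ a D, g.1 = H28.GLComp.blk e a D := by
    intro g hg
    apply exists_blk' e h2
    rw [mem_centralizer_singleton_iff] at hg
    rw [← htb]
    exact congrArg Subtype.val hg
  have hinj := sl_injective (F := F) e
  apply standard_of (L := (sl (F := F) e).range)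
  · apply orderOf_eq_prime
    · apply Subtype.ext
      rw [pow_two]
      change t.1 * t.1 = 1
      rw [htb, H28.GLComp.blk_mul]
      simp [H28.GLComp.blk_one]
    · intro h
      have h3 := congrArg Subtype.val h
      change t.1 = 1 at h3
      rw [htb, ← H28.GLComp.blk_one e] at h3
      have h4 := congrFun (congrFun (H28.GLComp.blk_injective e h3).2 ⟨0, by omega⟩) ⟨0, by omega⟩
      rw [Matrix.neg_apply, one_apply_eq] at h4
      apply h2
      calc (2 : F) = 1 - (-1) := by ring
        _ = 0 := by rw [h4]; ring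
  · exact H26.Quasisimple.of_mulEquiv (MonoidHom.ofInjective hinj) hQ
  · rintro _ ⟨s, rfl⟩
    rw [mem_centralizer_singleton_iff]
    apply Subtype.ext
    change (sl e s).1 * t.1 = t.1 * (sl e s).1
    rw [htb, coe_sl, H28.GLComp.blk_mul, H28.GLComp.blk_mul]
    simp
  · apply H28.Cj.le_normalizer_of_conj_mem
    rintro g hg _ ⟨s, rfl⟩
    obtain ⟨a, D, hD⟩ := hblk g hg
    obtain ⟨b, E, hE⟩ := hblk g⁻¹ (inv_mem hg)
    have h4 : g.1 * (g⁻¹).1 = 1 := congrArg Subtype.val (mul_inv_cancel g)
    rw [hD, hE, H28.GLComp.blk_mul, ← H28.GLComp.blk_one e] at h4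
    obtain ⟨h5, h6⟩ := H28.GLComp.blk_injective e h4
    refine ⟨⟨D * s.1 * E, ?_⟩, ?_⟩
    · rw [det_mul, det_mul, s.2, mul_one, ← det_mul, h6, det_one]
    · apply Subtype.ext
      change H28.GLComp.blk e 1 (D * s.1 * E) = g.1 * H28.GLComp.blk e 1 s.1 * (g⁻¹).1
      rw [hD, hE, H28.GLComp.blk_mul, H28.GLComp.blk_mul, mul_one, h5]
  · intro x hx y hy
    obtain ⟨a, b, hx1, -⟩ := mem_cent e hm h2 hx
    obtain ⟨c, d, hy1, -⟩ := mem_cent e hm h2 hy
    apply Subtype.ext
    change x.1 * y.1 = y.1 * x.1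
    rw [hx1, hy1, H28.GLComp.blk_mul, H28.GLComp.blk_mul]
    simp [mul_comm, smul_smul]
  · intro x hx hx2
    obtain ⟨a, b, hx1, hab⟩ := mem_cent e hm h2 hx
    have h3 : x ^ 2 = 1 := by rw [← hx2, pow_orderOf_eq_one]
    have h4 : x.1 * x.1 = 1 := by
      have := congrArg Subtype.val h3
      rw [pow_two] at this
      exact this
    rw [hx1, H28.GLComp.blk_mul, ← H28.GLComp.blk_one e] at h4
    obtain ⟨h5, h6⟩ := H28.GLComp.blk_injective e h4
    have h7 := congrFun (congrFun h6 ⟨0, by omega⟩) ⟨0, by omega⟩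
    have h8 : b * b = 1 := by
      simpa [smul_smul] using h7
    have h9 : b ^ m = 1 := by
      obtain ⟨k, hk⟩ := hm
      rw [hk, ← two_mul, pow_mul, pow_two, h8, one_pow]
    rw [h9, mul_one] at hab
    rcases mul_self_eq_one_iff.mp h8 with h10 | h10
    · exfalso
      have h11 : x = 1 := by
        apply Subtype.ext
        change x.1 = 1
        rw [hx1, hab, h10, one_smul, H28.GLComp.blk_one]
      rw [h11, orderOf_one] at hx2
      omega
    · apply Subtype.ext
      rw [hx1, hab, h10, htb, neg_smul, one_smul]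

end H28.SLStd
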